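import Cfsg.Agent.CharDeg.GarrisonCore
import Cfsg.Agent.CharInd.Kernel
import Cfsg.Agent.Cores.Fitting

/-!
Garrison's theorem: the largest degree of a solvable group is no degree of `G ⧸ F(G)`, and the
nilpotent length is bounded by the number of degrees.
-/

set_option autoImplicit false
set_option linter.style.haveILetI false

noncomputable section

namespace Cfsg.Agent.CharDeg

open Cfsg
open scoped commutatorElement
open Cfsg.Agent.Char (irr_charDegree_spec)

universe u
variable {G : Type u} [Group G] [Finite G]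

/-- The kernel of a character of largest degree is nilpotent or proper in the Fitting subgroup. -/
theorem kernel_le_fitting (χ : IrrCharacter G)
    (hmax : ∀ ξ : IrrCharacter G, charDegree (ξ : G → ℂ) ≤ charDegree (χ : G → ℂ))
    (K : Subgroup G) [K.Normal] (hK : ∀ g, g ∈ K ↔ (χ : G → ℂ) g = (χ : G → ℂ) 1) :
    K ≤ fittingSubgroup G := by
  classical
  letI := Fintype.ofFinite G
  refine Cores.le_fittingSubgroup inferInstance ((Group.isNilpotent_of_finite_tfae.out 0 3 rfl rfl).2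
    fun q hq Q => ?_)
  haveI := hq
  set Q' := (Q : Subgroup K).map K.subtype with hQ'
  set H := Subgroup.normalizer (Q' : Set G) with hH
  letI := Fintype.ofFinite H
  have hHK : H ⊔ K = ⊤ := Sylow.normalizer_sup_eq_top Q
  obtain ⟨β, hβ, hval⟩ := Char.irr_exists_descend χ.2 K fun k hk => (hK k).1 hk
  have hsurj : Function.Surjective ((QuotientGroup.mk' K).comp H.subtype) := by
    intro x
    obtain ⟨g, rfl⟩ := QuotientGroup.mk_surjective x
    obtain ⟨h, hh, k, hk, rfl⟩ := Subgroup.mem_sup_of_normal_right.1 (hHK ▸ Subgroup.mem_top g)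
    exact ⟨⟨h, hh⟩, QuotientGroup.eq.2 (by simpa using hk)⟩
  have hres : IsIrrCharacter H (fun h : H => (χ : G → ℂ) h) := by
    rw [show (fun h : H => (χ : G → ℂ) h) =
      fun h : H => β (((QuotientGroup.mk' K).comp H.subtype) h) from funext fun h => hval h]
    exact Char.isIrrCharacter_comp hβ _ hsurj
  set Φ := indFun H (fun h : H => (χ : G → ℂ) h) with hΦdef
  have hΦ : IsCharacter G Φ := CharInd.isCharacter_indFun H (Char.isCharacter_of_irr hres)
  have hQK : Q' ≤ K := Subgroup.map_subtype_le _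
  have hfix : ∀ x ∈ Q', ∀ g : G, g * x * g⁻¹ ∈ H := by
    intro x hx g
    refine mem_of_indFun_eq H (Char.isCharacter_of_irr hres)
      (by rw [OneMemClass.coe_one]; exact Char.irr_one_ne_zero χ.2) ?_
    obtain ⟨m, hm, hm'⟩ := Char.isCharacter_exists_coeff hΦ
    show Φ (g * x * g⁻¹) = Φ 1
    rw [hm, Finset.sum_apply, Finset.sum_apply]
    refine Finset.sum_congr rfl fun ξ _ => ?_
    simp only [Pi.smul_apply]
    rcases Nat.eq_zero_or_pos (m ξ) with h0 | h0
    · simp [h0]
    congr 1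
    rw [Char.irr_isClassFunction ξ.2 x g]
    have h1 : classInner Φ (ξ : G → ℂ) ≠ 0 := by rw [hm']; exact_mod_cast h0.ne'
    rw [hΦdef, CharInd.classInner_indFun_left H _ (Char.irr_isClassFunction ξ.2),
      ← Char.classInner_conj] at h1
    have h2 := CharInd.eq_of_constituent_of_degree
      (CharInd.isCharacter_res H (Char.isCharacter_of_irr ξ.2)) hres
      (fun h => h1 (by rw [h, map_zero]))
      (by
        rw [OneMemClass.coe_one, one_apply, one_apply, Complex.natCast_re, Complex.natCast_re]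
        exact_mod_cast hmax ξ)
    have h3 : x ∈ H := Subgroup.le_normalizer hx
    have e1 := congrFun h2 ⟨x, h3⟩
    have e2 := congrFun h2 1
    simp only [OneMemClass.coe_one] at e1 e2
    rw [e1, e2]
    exact (hK x).1 (hQK hx)
  have hQ'p : IsPGroup q Q' := Q.2.map _
  have hQ'n : Q'.Normal := by
    refine ⟨fun x hx g => ?_⟩
    set S := Q'.map (MulAut.conj g).toMonoidHom with hS
    have hSH : S ≤ H := by
      rintro _ ⟨y, hy, rfl⟩
      exact hfix y hy g
    have hSK : S ≤ K := by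
      rintro _ ⟨y, hy, rfl⟩
      exact Subgroup.Normal.conj_mem inferInstance _ (hQK hy) g
    have hsup : IsPGroup q (S ⊔ Q' : Subgroup G) :=
      IsPGroup.to_sup_of_normal_right' (hQ'p.map _) hQ'p hSH
    have heq : (S ⊔ Q').subgroupOf K = Q := by
      refine Q.is_maximal' hsup.comap_subtype ?_
      intro y hy
      exact Subgroup.mem_subgroupOf.2 (Subgroup.mem_sup_right ⟨y, hy, rfl⟩)
    have hgx : g * x * g⁻¹ ∈ S := ⟨x, hx, rfl⟩
    have : (⟨g * x * g⁻¹, hSK hgx⟩ : K) ∈ (S ⊔ Q').subgroupOf K :=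
      Subgroup.mem_subgroupOf.2 (Subgroup.mem_sup_left hgx)
    rw [heq] at this
    exact ⟨_, this, rfl⟩
  refine ⟨fun y hy g => ?_⟩
  obtain ⟨z, hz, he⟩ := hQ'n.conj_mem _ (Subgroup.mem_map_of_mem K.subtype hy) (g : G)
  have : z = g * y * g⁻¹ := Subtype.ext (by simpa using he)
  exact this ▸ hz

theorem mem_pPrime_sup {p : ℕ} [Fact p.Prime] :
    fittingSubgroup G ≤ pCore p G ⊔ (fittingSubgroup G ⊓ pPrimeCore p G) := by
  rw [Cores.fittingSubgroup_eq_iSup_pCore]
  refine iSup_le fun r => ?_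
  rcases eq_or_ne (r : ℕ) p with hr | hr
  · rw [hr]; exact le_sup_left
  · haveI : Fact (r : ℕ).Prime := ⟨r.2⟩
    refine le_sup_of_le_right (le_inf (le_iSup (fun s : Nat.Primes => pCore (s : ℕ) G) r) ?_)
    refine Cores.le_pPrimeCore inferInstance ?_
    obtain ⟨n, hn⟩ := IsPGroup.iff_card.1 (Cores.pCore_isPGroup (p := (r : ℕ)) (G := G))
    rw [hn]
    exact Nat.Coprime.pow_left n ((Nat.coprime_primes r.2 Fact.out).2 hr)

/-- An element commuting with a commutator of coprime order commutes. -/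
theorem commute_of_coprime_shift {n p j : ℕ} (hp : p.Prime) (hn : ¬ p ∣ n) {r x : G}
    (hx : x ^ p ^ j = 1) (hc : (r * x * r⁻¹ * x⁻¹) ^ n = 1)
    (hcx : x * (r * x * r⁻¹ * x⁻¹) = (r * x * r⁻¹ * x⁻¹) * x) : r * x = x * r := by
  set c := r * x * r⁻¹ * x⁻¹ with hcdef
  have h1 : c ^ p ^ j = 1 := by
    have e : r * x * r⁻¹ = c * x := by rw [hcdef, inv_mul_cancel_right]
    have h2 : (r * x * r⁻¹) ^ p ^ j = (c * x) ^ p ^ j := by rw [e]
    rw [conj_pow, hx, (show Commute c x from hcx.symm).mul_pow, hx, mul_one, mul_one,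
      mul_inv_cancel] at h2
    exact h2.symm
  have h3 := pow_gcd_eq_one.2 ⟨h1, hc⟩
  rw [((hp.coprime_iff_not_dvd.2 hn).pow_left j).gcd_eq_one, pow_one, hcdef, mul_inv_eq_one,
    mul_inv_eq_iff_eq_mul] at h3
  exact h3

/-- A character of largest degree is nontrivial on the Fitting subgroup. -/
theorem not_trivial_on_fitting [Group.IsSolvable G] (hF : fittingSubgroup G ≠ ⊤)
    (χ : IrrCharacter G)
    (hmax : ∀ ξ : IrrCharacter G, charDegree (ξ : G → ℂ) ≤ charDegree (χ : G → ℂ))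
    (hker : ∀ f ∈ fittingSubgroup G, (χ : G → ℂ) f = (χ : G → ℂ) 1) : False := by
  classical
  set F := fittingSubgroup G with hFdef
  obtain ⟨K, hKn, hK⟩ := CharInd.exists_charKer (Char.isCharacter_of_irr χ.2)
  haveI := hKn
  have hKF : K = F :=
    le_antisymm (kernel_le_fitting χ hmax K hK) fun f hf => (hK f).2 (hker f hf)
  -- a chief factor above `F`
  obtain ⟨M, ⟨hMn, hFM⟩, hmin⟩ :=
    ({L : Subgroup G | L.Normal ∧ F < L}.toFinite).exists_minimal
      ⟨⊤, inferInstance, lt_top_iff_ne_top.2 hF⟩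
  haveI := hMn
  have hchief : ∀ L : Subgroup G, L.Normal → F ≤ L → L ≤ M → L = F ∨ L = M := fun L hL h1 h2 => by
    by_cases h : L = F
    · exact Or.inl h
    · exact Or.inr (le_antisymm h2 (hmin ⟨hL, lt_of_le_of_ne h1 (Ne.symm h)⟩ h2))
  set π := QuotientGroup.mk' F with hπ
  have hπs : Function.Surjective π := QuotientGroup.mk'_surjective F
  set M' := M.map π with hM'
  have hM'ne : M' ≠ ⊥ := by
    rw [hM', Ne, Subgroup.map_eq_bot_iff, QuotientGroup.ker_mk']
    exact fun h => hFM.not_ge h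
  have hcomm : ∀ x ∈ M, ∀ y ∈ M, x * y * x⁻¹ * y⁻¹ ∈ F := by
    have hsup : ⁅M, M⁆ ⊔ F = F := by
      rcases hchief (⁅M, M⁆ ⊔ F) (Subgroup.sup_normal _ _) le_sup_right
        (sup_le M.commutator_le_self hFM.le) with h | h
      · exact h
      · exfalso
        refine (Group.IsSolvable.commutator_lt_of_ne_bot hM'ne).ne ?_
        have h1 := congrArg (Subgroup.map π) h
        rw [Subgroup.map_sup, Subgroup.map_commutator, (Subgroup.map_eq_bot_iff F).2
          (QuotientGroup.ker_mk' F).ge, sup_bot_eq] at h1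
        exact h1
    intro x hx y hy
    exact (le_sup_left.trans hsup.le) (Subgroup.commutator_mem_commutator hx hy)
  obtain ⟨p, hp, hpd⟩ := Nat.exists_prime_and_dvd
    (fun h : Nat.card M' = 1 => hM'ne (Subgroup.card_eq_one.1 h))
  haveI : Fact p.Prime := ⟨hp⟩
  have hcM' : ∀ x ∈ M, ∀ y ∈ M, Commute (π x) (π y) := fun x hx y hy => by
    have h1 : π (x * y * x⁻¹ * y⁻¹) = 1 := (QuotientGroup.eq_one_iff _).2 (hcomm x hx y hy)
    rw [map_mul, map_mul, map_mul, map_inv, map_inv, mul_inv_eq_one, mul_inv_eq_iff_eq_mul] at h1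
    exact h1
  have hpow : ∀ x ∈ M, x ^ p ∈ F := by
    let M0 : Subgroup G :=
      { carrier := {x | x ∈ M ∧ π x ^ p = 1}
        one_mem' := ⟨M.one_mem, by rw [map_one, one_pow]⟩
        mul_mem' := by
          rintro x y ⟨hx, hx'⟩ ⟨hy, hy'⟩
          exact ⟨M.mul_mem hx hy, by rw [map_mul, (hcM' x hx y hy).mul_pow, hx', hy', one_mul]⟩
        inv_mem' := by
          rintro x ⟨hx, hx'⟩
          exact ⟨M.inv_mem hx, by rw [map_inv, inv_pow, hx', inv_one]⟩ }
    have hn : M0.Normal := ⟨fun x ⟨hx, hx'⟩ g =>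
      ⟨hMn.conj_mem x hx g, by rw [map_mul, map_mul, map_inv, conj_pow, hx', mul_one, mul_inv_cancel]⟩⟩
    have hFM0 : F ≤ M0 := fun f hf =>
      ⟨hFM.le hf, by rw [show π f = 1 from (QuotientGroup.eq_one_iff f).2 hf, one_pow]⟩
    rcases hchief M0 hn hFM0 (fun x hx => hx.1) with h | h
    · exfalso
      obtain ⟨⟨y, hy⟩, hord⟩ := exists_prime_orderOf_dvd_card' (G := M') p hpd
      obtain ⟨x, hx, rfl⟩ := hy
      have h2 : π x ^ p = 1 := by
        rw [← hord]
        exact congrArg Subtype.val (pow_orderOf_eq_one (⟨π x, ⟨x, hx, rfl⟩⟩ : M'))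
      have h3 : x ∈ F := h ▸ (⟨hx, h2⟩ : x ∈ M0)
      rw [show (⟨π x, ⟨x, hx, rfl⟩⟩ : M') = 1 from Subtype.ext ((QuotientGroup.eq_one_iff x).2 h3),
        orderOf_one] at hord
      exact hp.one_lt.ne hord
    · intro x hx
      have : x ∈ M0 := h.symm ▸ hx
      rw [← QuotientGroup.eq_one_iff, QuotientGroup.mk_pow]
      exact this.2
  -- the `p'`-part of `F` and a Sylow subgroup of `M`
  set R := F ⊓ pPrimeCore p G with hR
  haveI hRn : R.Normal := inferInstance
  have hRp : ¬ p ∣ Nat.card R := fun h =>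
    Cores.not_dvd_card_pPrimeCore (h.trans (Subgroup.card_dvd_of_le inf_le_right))
  obtain ⟨PM⟩ := (inferInstance : Nonempty (Sylow p M))
  set P := (PM : Subgroup M).map M.subtype with hP
  have hPp : IsPGroup p P := PM.2.map _
  have hPM : P ≤ M := Subgroup.map_subtype_le _
  have hcoreM : pCore p G ≤ M := (Cores.pCore_le_fittingSubgroup).trans hFM.le
  have hcoreP : pCore p G ≤ P := by
    have hsup : IsPGroup p (pCore p G ⊔ P : Subgroup G) :=
      IsPGroup.to_sup_of_normal_left Cores.pCore_isPGroup hPp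
    have heq : (pCore p G ⊔ P).subgroupOf M = PM := by
      refine PM.is_maximal' hsup.comap_subtype ?_
      intro y hy
      exact Subgroup.mem_subgroupOf.2 (Subgroup.mem_sup_right ⟨y, hy, rfl⟩)
    intro x hx
    have : (⟨x, hcoreM hx⟩ : M) ∈ (pCore p G ⊔ P).subgroupOf M :=
      Subgroup.mem_subgroupOf.2 (Subgroup.mem_sup_left hx)
    rw [heq] at this
    exact ⟨_, this, rfl⟩
  have hFRP : F ≤ R ⊔ P := mem_pPrime_sup.trans (sup_le (hcoreP.trans le_sup_right) le_sup_left)
  have hMRP : M ≤ R ⊔ P := by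
    rw [← Subgroup.relIndex_eq_one]
    have hM'p : IsPGroup p M' := by
      rintro ⟨_, x, hx, rfl⟩
      refine ⟨1, Subtype.ext ?_⟩
      rw [pow_one, Subgroup.coe_pow, Subgroup.coe_one]
      rw [← map_pow]
      exact (QuotientGroup.eq_one_iff _).2 (hpow x hx)
    obtain ⟨n, hn⟩ := IsPGroup.iff_card.1 hM'p
    have hn' : F.relIndex M = p ^ n := by
      rw [← hn, hM', ← Subgroup.relIndex_bot_left, ← Subgroup.relIndex_comap,
        MonoidHom.comap_bot, QuotientGroup.ker_mk']
    have h1 : (R ⊔ P).relIndex M ∣ p ^ n := hn' ▸ Subgroup.relIndex_dvd_of_le_left M hFRP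
    have h2 : (R ⊔ P).relIndex M ∣ P.relIndex M := Subgroup.relIndex_dvd_of_le_left M le_sup_right
    have h3 : P.relIndex M = (PM : Subgroup M).index := by
      rw [Subgroup.relIndex, hP, Subgroup.subgroupOf,
        Subgroup.comap_map_eq_self_of_injective M.subtype_injective]
    rw [h3] at h2
    exact Nat.eq_one_of_dvd_coprimes ((hp.coprime_iff_not_dvd.2 PM.not_dvd_index).pow_left n) h1 h2
  have hNR : Subgroup.normalizer (P : Set G) ⊔ R = ⊤ := by
    refine top_le_iff.1 ?_
    rw [← Sylow.normalizer_sup_eq_top PM]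
    exact sup_le le_sup_left (hMRP.trans (sup_le le_sup_right
      (Subgroup.le_normalizer.trans le_sup_left)))
  have hnc : ¬ ∀ r ∈ R, ∀ x ∈ P, r * x * r⁻¹ * x⁻¹ = 1 := by
    intro h
    have hRN : R ≤ Subgroup.normalizer (P : Set G) := by
      intro r hr
      refine Subgroup.centralizer_le_normalizer _ (Subgroup.mem_centralizer_iff.2 fun x hx => ?_)
      have := h r hr x hx
      rw [mul_inv_eq_one, mul_inv_eq_iff_eq_mul] at this
      exact this.symm
    have hPn : P.Normal := by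
      rw [← Subgroup.normalizer_eq_top_iff, ← top_le_iff, ← hNR]
      exact sup_le le_rfl hRN
    refine hFM.not_ge (hMRP.trans (sup_le inf_le_left ?_))
    exact Cores.le_fittingSubgroup hPn hPp.isNilpotent
  -- maximal normal subgroup of `G` in `R` not containing all commutators
  obtain ⟨L, ⟨hLn, hLR, hLc⟩, hLmax⟩ :=
    ({L : Subgroup G | L.Normal ∧ L ≤ R ∧ ¬ ∀ r ∈ R, ∀ x ∈ P, r * x * r⁻¹ * x⁻¹ ∈ L}.toFinite).exists_maximal
      ⟨⊥, inferInstance, bot_le, fun h => hnc fun r hr x hx => Subgroup.mem_bot.1 (h r hr x hx)⟩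
  haveI := hLn
  set σ := QuotientGroup.mk' L with hσ
  have hσs : Function.Surjective σ := QuotientGroup.mk'_surjective L
  set R1 := R.map σ with hR1
  haveI hR1n : R1.Normal := hRn.map σ hσs
  set P1 := P.map σ with hP1
  have hR1p : ¬ p ∣ Nat.card R1 := fun h => hRp (h.trans (R.card_map_dvd σ))
  have hR1ne : R1 ≠ ⊥ := by
    rw [hR1, Ne, Subgroup.map_eq_bot_iff, QuotientGroup.ker_mk']
    intro h
    exact hLc fun r hr x hx => h (R.mul_mem (show r * x * r⁻¹ * x⁻¹ ∈ R by
      rw [show r * x * r⁻¹ * x⁻¹ = r * (x * r⁻¹ * x⁻¹) by group]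
      exact R.mul_mem hr (hRn.conj_mem _ (R.inv_mem hr) x)) R.one_mem |> fun h => by simpa using h)
  haveI : Group.IsNilpotent F := Cores.fittingSubgroup_isNilpotent
  haveI : Group.IsNilpotent R :=
    Group.nilpotent_of_mulEquiv (Subgroup.subgroupOfEquivOfLe (inf_le_left : R ≤ F))
  haveI : Group.IsNilpotent R1 := Group.nilpotent_of_surjective _ (σ.subgroupMap_surjective R)
  haveI : Nontrivial R1 := (Subgroup.nontrivial_iff_ne_bot _).2 hR1ne
  set Z1 := R1 ⊓ Subgroup.centralizer (R1 : Set (G ⧸ L)) with hZ1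
  have hZ1ne : Z1 ≠ ⊥ := by
    intro h
    refine Group.IsNilpotent.center_ne_bot (G := R1) ((Subgroup.eq_bot_iff_forall _).2 fun z hz => ?_)
    have : (z : G ⧸ L) ∈ Z1 := ⟨z.2, Subgroup.mem_centralizer_iff.2 fun y hy =>
      congrArg Subtype.val (Subgroup.mem_center_iff.1 hz ⟨y, hy⟩)⟩
    rw [h, Subgroup.mem_bot] at this
    exact Subtype.ext this
  have hbig : ∀ L1 : Subgroup (G ⧸ L), L1.Normal → L1 ≤ R1 → L1 ≠ ⊥ →
      ∀ r ∈ R1, ∀ x ∈ P1, r * x * r⁻¹ * x⁻¹ ∈ L1 := by
    intro L1 hL1 hL1R hL1ne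
    by_contra hcon
    refine hL1ne ?_
    have hle : L ≤ L1.comap σ ⊓ R := le_inf (fun l hl => by
      rw [Subgroup.mem_comap, show σ l = 1 from (QuotientGroup.eq_one_iff l).2 hl]
      exact L1.one_mem) hLR
    have hc : ¬ ∀ r ∈ R, ∀ x ∈ P, r * x * r⁻¹ * x⁻¹ ∈ L1.comap σ ⊓ R := by
      intro h
      refine hcon ?_
      rintro _ ⟨r, hr, rfl⟩ _ ⟨x, hx, rfl⟩
      have := (Subgroup.mem_inf.1 (h r hr x hx)).1
      rwa [Subgroup.mem_comap, map_mul, map_mul, map_mul, map_inv, map_inv] at this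
    have heq := le_antisymm (hLmax ⟨@Subgroup.normal_inf_normal _ _ _ _ (hL1.comap σ) hRn,
      inf_le_right, hc⟩ hle) hle
    rw [Subgroup.eq_bot_iff_forall]
    intro y hy
    obtain ⟨r, hr, rfl⟩ := hL1R hy
    exact (QuotientGroup.eq_one_iff r).2 (heq.le ⟨hy, hr⟩)
  set S := {c : G ⧸ L | ∃ r ∈ R1, ∃ x ∈ P1, c = r * x * r⁻¹ * x⁻¹} with hS
  set W := Subgroup.normalClosure S with hW
  haveI hWn : W.Normal := Subgroup.normalClosure_normal
  have hWZ : W ≤ Z1 := Subgroup.normalClosure_le_normal fun c hc => by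
    obtain ⟨r, hr, x, hx, rfl⟩ := hc
    exact hbig Z1 inferInstance inf_le_left hZ1ne r hr x hx
  have hWR : W ≤ R1 := hWZ.trans inf_le_left
  have hWc : ∀ a ∈ W, ∀ b ∈ W, a * b = b * a := fun a ha b hb =>
    (Subgroup.mem_centralizer_iff.1 (hWZ hb).2 a (hWR ha))
  have hWp : ¬ p ∣ Nat.card W := fun h => hR1p (h.trans (Subgroup.card_dvd_of_le hWR))
  have hSmem : ∀ r ∈ R1, ∀ x ∈ P1, r * x * r⁻¹ * x⁻¹ ∈ W := fun r hr x hx =>
    Subgroup.subset_normalClosure ⟨r, hr, x, hx, rfl⟩
  have hP1p : IsPGroup p P1 := hPp.map _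
  -- the trick: `P1` cannot centralise all commutators
  have htrick : ¬ ∀ r ∈ R1, ∀ x ∈ P1, ∀ y ∈ P1,
      y * (r * x * r⁻¹ * x⁻¹) = (r * x * r⁻¹ * x⁻¹) * y := by
    intro h
    refine hLc fun r hr x hx => ?_
    obtain ⟨j, hj⟩ := hP1p ⟨σ x, Subgroup.mem_map_of_mem σ hx⟩
    have hj' : σ x ^ p ^ j = 1 := congrArg Subtype.val hj
    have hrx : σ r * σ x = σ x * σ r := by
      refine commute_of_coprime_shift hp hR1p hj' ?_
        (h _ (Subgroup.mem_map_of_mem σ hr) _ (Subgroup.mem_map_of_mem σ hx) _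
          (Subgroup.mem_map_of_mem σ hx))
      exact congrArg Subtype.val (pow_card_eq_one' (x := (⟨_, hWR
        (hSmem _ (Subgroup.mem_map_of_mem σ hr) _ (Subgroup.mem_map_of_mem σ hx))⟩ : R1)))
    rw [← QuotientGroup.eq_one_iff]
    show σ (r * x * r⁻¹ * x⁻¹) = 1
    rw [map_mul, map_mul, map_mul, map_inv, map_inv, hrx, mul_inv_cancel_right, mul_inv_cancel]
  -- Frattini
  set N1 := Subgroup.normalizer (P1 : Set (G ⧸ L)) with hN1
  have htop1 : N1 ⊔ R1 = ⊤ := by
    refine top_le_iff.1 fun y _ => ?_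
    obtain ⟨g, rfl⟩ := hσs y
    have hg : g ∈ Subgroup.normalizer (P : Set G) ⊔ R := by rw [hNR]; exact Subgroup.mem_top g
    obtain ⟨n, hn, r, hr, rfl⟩ := Subgroup.mem_sup_of_normal_right.1 hg
    rw [map_mul]
    refine Subgroup.mul_mem_sup ?_ (Subgroup.mem_map_of_mem σ hr)
    exact (Subgroup.le_normalizer_map σ) (Subgroup.mem_map_of_mem σ hn)
  set M2 := W ⊔ P1 with hM2
  haveI hM2n : M2.Normal := by
    rw [← Subgroup.normalizer_eq_top_iff, ← top_le_iff, ← htop1]
    refine sup_le ?_ ?_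
    · intro n hn
      rw [hN1, Subgroup.mem_normalizer_iff] at hn
      rw [Subgroup.mem_normalizer_iff]
      have key : ∀ m : G ⧸ L, (∀ y, y ∈ P1 → m * y * m⁻¹ ∈ P1) → ∀ y ∈ M2, m * y * m⁻¹ ∈ M2 := by
        intro m hm y hy
        obtain ⟨w, hw, x, hx, rfl⟩ := Subgroup.mem_sup_of_normal_left.1 hy
        rw [show m * (w * x) * m⁻¹ = (m * w * m⁻¹) * (m * x * m⁻¹) by group]
        exact Subgroup.mul_mem_sup (hWn.conj_mem w hw m) (hm x hx)
      intro y
      refine ⟨key n (fun z hz => (hn z).1 hz) y, fun h => ?_⟩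
      have := key n⁻¹ (fun z hz => (hn _).2 (by simpa [mul_assoc] using hz)) _ h
      simpa [mul_assoc] using this
    · intro r hr
      have key : ∀ m ∈ R1, ∀ y ∈ M2, m * y * m⁻¹ ∈ M2 := by
        intro m hm y hy
        obtain ⟨w, hw, x, hx, rfl⟩ := Subgroup.mem_sup_of_normal_left.1 hy
        rw [show m * (w * x) * m⁻¹ = (m * w * m⁻¹) * ((m * x * m⁻¹ * x⁻¹) * x) by group]
        exact M2.mul_mem (Subgroup.mem_sup_left (hWn.conj_mem w hw m))
          (Subgroup.mul_mem_sup (hSmem m hm x hx) hx)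
      rw [Subgroup.mem_normalizer_iff]
      refine fun y => ⟨key r hr y, fun h => ?_⟩
      have := key r⁻¹ (R1.inv_mem hr) _ h
      simpa [mul_assoc] using this
  have hidx : ¬ p ∣ (P1.subgroupOf M2).index := by
    intro h
    refine hWp (h.trans ?_)
    have h1 : Nat.card M2 ∣ Nat.card P1 * Nat.card W := by
      rw [hM2, sup_comm]; exact Cores.card_sup_dvd_mul P1 W
    rw [← (P1.subgroupOf M2).card_mul_index,
      Nat.card_congr (Subgroup.subgroupOfEquivOfLe (le_sup_right : P1 ≤ M2)).toEquiv] at h1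
    exact (Nat.mul_dvd_mul_iff_left Nat.card_pos).1 h1
  have htop2 : N1 ⊔ W = ⊤ := by
    have h1 := Sylow.normalizer_sup_eq_top
      ((hP1p.comap_subtype (H := P1) (K := M2)).toSylow hidx)
    change Subgroup.normalizer (((P1.subgroupOf M2).map M2.subtype : Subgroup (G ⧸ L)) : Set (G ⧸ L)) ⊔ M2 = ⊤ at h1
    rw [Subgroup.map_subgroupOf_eq_of_le (le_sup_right : P1 ≤ M2)] at h1
    refine top_le_iff.1 (h1.symm.trans_le ?_)
    exact sup_le le_sup_left (sup_le le_sup_right (Subgroup.le_normalizer.trans le_sup_left))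
  have hdisjRP : ∀ z ∈ R1, z ∈ P1 → z = 1 := by
    intro z hz hz'
    obtain ⟨j, hj⟩ := hP1p ⟨z, hz'⟩
    have h1 : z ^ p ^ j = 1 := congrArg Subtype.val hj
    have h2 : z ^ Nat.card R1 = 1 := congrArg Subtype.val (pow_card_eq_one' (x := (⟨z, hz⟩ : R1)))
    have := pow_gcd_eq_one.2 ⟨h1, h2⟩
    rwa [((hp.coprime_iff_not_dvd.2 hR1p).pow_left j).gcd_eq_one, pow_one] at this
  have hC : W ⊓ Subgroup.centralizer (P1 : Set (G ⧸ L)) = ⊥ := by
    set Cw := W ⊓ Subgroup.centralizer (P1 : Set (G ⧸ L)) with hCw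
    have hn : Cw.Normal := by
      rw [← Subgroup.normalizer_eq_top_iff, ← top_le_iff, ← htop1]
      refine sup_le ?_ ?_
      · intro n hn
        rw [hN1, Subgroup.mem_normalizer_iff] at hn
        have key : ∀ m : G ⧸ L, (∀ y, y ∈ P1 → m⁻¹ * y * m ∈ P1) → ∀ c ∈ Cw, m * c * m⁻¹ ∈ Cw := by
          intro m hm c hc
          refine ⟨hWn.conj_mem c hc.1 m, Subgroup.mem_centralizer_iff.2 fun y hy => ?_⟩
          have := Subgroup.mem_centralizer_iff.1 hc.2 _ (hm y hy)
          calc y * (m * c * m⁻¹) = m * ((m⁻¹ * y * m) * c) * m⁻¹ := by group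
            _ = m * (c * (m⁻¹ * y * m)) * m⁻¹ := by rw [this]
            _ = m * c * m⁻¹ * y := by group
        rw [Subgroup.mem_normalizer_iff]
        refine fun c => ⟨key n (fun z hz => (hn _).2 (by simpa [mul_assoc] using hz)) c, fun h => ?_⟩
        have := key n⁻¹ (fun z hz => by simpa using (hn z).1 hz) _ h
        simpa [mul_assoc] using this
      · intro r hr
        rw [Subgroup.mem_normalizer_iff]
        intro c
        constructor
        · intro h
          rwa [Subgroup.mem_centralizer_iff.1 (hWZ h.1).2 r hr, mul_inv_cancel_right]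
        · intro h
          have h1 := Subgroup.mem_centralizer_iff.1 (hWZ h.1).2 r⁻¹ (R1.inv_mem hr)
          have e : c = r⁻¹ * (r * c * r⁻¹) * (r⁻¹)⁻¹ := by group
          rw [e, h1, mul_inv_cancel_right]
          exact h
    by_contra hne
    refine htrick fun r hr x hx y hy => ?_
    exact (Subgroup.mem_centralizer_iff.1
      (hbig Cw hn (inf_le_left.trans hWR) hne r hr x hx).2 y hy)
  have hWN : W ⊓ N1 = ⊥ := by
    rw [← le_bot_iff, ← hC]
    rintro w ⟨hw, hwN⟩
    refine ⟨hw, Subgroup.mem_centralizer_iff.2 fun y hy => ?_⟩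
    have h1 : w * y * w⁻¹ * y⁻¹ ∈ P1 :=
      P1.mul_mem ((Subgroup.mem_normalizer_iff.1 hwN y).1 hy) (P1.inv_mem hy)
    have h2 : w * y * w⁻¹ * y⁻¹ ∈ R1 := hWR (hSmem w (hWR hw) y hy)
    have h3 := hdisjRP _ h2 h1
    rw [mul_inv_eq_one, mul_inv_eq_iff_eq_mul] at h3
    exact h3.symm
  have hWH : ∀ y : G ⧸ L, ∃ a ∈ W, ∃ h ∈ N1, y = a * h := by
    intro y
    have hy : y ∈ W ⊔ N1 := by rw [sup_comm, htop2]; exact Subgroup.mem_top y
    obtain ⟨a, ha, h, hh, e⟩ := Subgroup.mem_sup_of_normal_left.1 hy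
    exact ⟨a, ha, h, hh, e.symm⟩
  haveI hF1n : (F.map σ).Normal := Subgroup.Normal.map inferInstance σ hσs
  haveI hM1n : (M.map σ).Normal := hMn.map σ hσs
  have hFC : F.map σ ≤ Subgroup.centralizer (W : Set (G ⧸ L)) := by
    rw [Subgroup.map_le_iff_le_comap]
    refine (mem_pPrime_sup (p := p)).trans (sup_le ?_ ?_)
    · intro x hx
      refine Subgroup.mem_centralizer_iff.2 fun w hw => ?_
      obtain ⟨r, hr, rfl⟩ := hWR hw
      have hcm : Commute r x := Subgroup.commute_of_normal_of_disjoint R (pCore p G) hRn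
        inferInstance (Subgroup.disjoint_of_coprime_natCard (by
          obtain ⟨n, hn⟩ := IsPGroup.iff_card.1 (Cores.pCore_isPGroup (p := p) (G := G))
          rw [hn]
          exact ((hp.coprime_iff_not_dvd.2 hRp).symm).pow_right n)) r x hr hx
      rw [← map_mul, ← map_mul, hcm.eq]
    · intro x hx
      refine Subgroup.mem_centralizer_iff.2 fun w hw => ?_
      exact (Subgroup.mem_centralizer_iff.1 (hWZ hw).2 (σ x) (Subgroup.mem_map_of_mem σ hx)).symm
  have hMC : ∀ y ∈ M.map σ, y ∈ Subgroup.centralizer (W : Set (G ⧸ L)) → y ∈ F.map σ := by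
    set C := (Subgroup.centralizer (W : Set (G ⧸ L))).comap σ ⊓ M with hCdef
    haveI : ((Subgroup.centralizer (W : Set (G ⧸ L))).comap σ).Normal :=
      Subgroup.Normal.comap inferInstance σ
    rcases hchief C inferInstance (le_inf (Subgroup.map_le_iff_le_comap.1 hFC) hFM.le)
      inf_le_right with h | h
    · rintro _ ⟨x, hx, rfl⟩ hxc
      exact Subgroup.mem_map_of_mem σ (h ▸ (⟨hxc, hx⟩ : x ∈ C))
    · exfalso
      refine htrick fun r hr x hx y hy => ?_
      obtain ⟨y, hy', rfl⟩ := hy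
      have h1 : y ∈ C := h.symm ▸ hPM hy'
      exact (Subgroup.mem_centralizer_iff.1 (Subgroup.mem_inf.1 h1).1 _ (hSmem r hr x hx)).symm
  -- the character
  have hLF : L ≤ F := hLR.trans inf_le_left
  obtain ⟨χ1, hχ1, hval⟩ := Char.irr_exists_descend χ.2 L fun l hl => hker l (hLF hl)
  have hdeg : charDegree χ1 = charDegree (χ : G → ℂ) := by
    rw [charDegree, charDegree, hval 1, QuotientGroup.mk_one]
  have hAF : W ≤ F.map σ := hWR.trans (Subgroup.map_mono inf_le_left)
  refine garrison_core hp hWp hWc N1 hWH hWN (F.map σ) (M.map σ) hAF (Subgroup.map_mono hFM.le) hFC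
    hMC ?_ ?_ ⟨χ1, hχ1⟩ ?_ ?_ ?_
  · rintro _ ⟨x, hx, rfl⟩
    exact ⟨x ^ p, hpow x hx, map_pow σ x p⟩
  · rintro _ ⟨x, hx, rfl⟩ _ ⟨y, hy, rfl⟩
    exact ⟨x * y * x⁻¹ * y⁻¹, hcomm x hx y hy, by simp [map_mul, map_inv]⟩
  · rintro _ ⟨f, hf, rfl⟩
    show χ1 (σ f) = χ1 1
    rw [← QuotientGroup.mk_one, ← hval, hσ, QuotientGroup.mk'_apply, ← hval, hker f hf]
  · intro h
    refine hFM.not_ge fun x hx => ?_
    rw [← hKF]
    refine (hK x).2 ?_
    rw [hval, hval 1]
    exact h (σ x) (Subgroup.mem_map_of_mem σ hx)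
  · intro ξ
    show charDegree (ξ : G ⧸ L → ℂ) ≤ charDegree χ1
    rw [hdeg, ← CharGraph.charDegree_inflate L ξ]
    exact hmax _

/-- A bound on the lower central series of each factor. -/
def HasNilSeries (G : Type u) [Group G] (k : ℕ) : Prop :=
  ∃ N : ℕ → Subgroup G, N 0 = ⊥ ∧ (∀ i, k ≤ i → N i = ⊤) ∧ Monotone N ∧ (∀ i, (N i).Normal) ∧
    ∀ i, ∃ c, (N (i + 1)).lowerCentralSeries c ≤ N i

theorem hasNilSeries_of_quotient (F : Subgroup G) [F.Normal] [Group.IsNilpotent F] {k : ℕ}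
    (h : HasNilSeries (G ⧸ F) k) : HasNilSeries G (k + 1) := by
  obtain ⟨N, h0, ht, hm, hn, hf⟩ := h
  let f : ℕ → Subgroup G := fun i => match i with
    | 0 => ⊥
    | i + 1 => (N i).comap (QuotientGroup.mk' F)
  refine ⟨f, rfl, fun i hi => ?_, monotone_nat_of_le_succ fun i => ?_, fun i => ?_, fun i => ?_⟩
  · match i, hi with
    | i + 1, hi => show (N i).comap _ = ⊤; rw [ht i (by omega), Subgroup.comap_top]
  · match i with
    | 0 => exact bot_le
    | i + 1 => exact Subgroup.comap_mono (hm i.le_succ)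
  · match i with
    | 0 => exact (inferInstance : (⊥ : Subgroup G).Normal)
    | i + 1 => exact (hn i).comap _
  · match i with
    | 0 =>
      have e : f 1 = F := by
        show (N 0).comap _ = F
        rw [h0, MonoidHom.comap_bot, QuotientGroup.ker_mk']
      obtain ⟨c, hc⟩ := (Subgroup.isNilpotent_iff_lowerCentralSeries F).1 ‹_›
      exact ⟨c, by rw [e, hc]⟩
    | i + 1 =>
      obtain ⟨c, hc⟩ := hf i
      refine ⟨c, Subgroup.map_le_iff_le_comap.1 ?_⟩
      rw [Subgroup.map_lowerCentralSeries]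
      exact (Subgroup.lowerCentralSeries_mono c (Subgroup.map_comap_le _ _)).trans hc

theorem hasNilSeries_mono {j k : ℕ} (h : HasNilSeries G j) (hjk : j ≤ k) : HasNilSeries G k := by
  obtain ⟨N, h0, ht, hm, hn, hf⟩ := h
  exact ⟨N, h0, fun i hi => ht i (hjk.trans hi), hm, hn, hf⟩

/-- Nilpotent length at most the number of degrees. -/
theorem hasNilSeries_card_degrees : ∀ (s : ℕ) (G : Type u) [Group G] [Finite G],
    Nat.card G = s → Group.IsSolvable G →
    HasNilSeries G ({d : ℕ | ∃ χ : IrrCharacter G, charDegree (χ : G → ℂ) = d}.ncard) := by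
  intro s
  induction s using Nat.strong_induction_on with
  | _ s ih =>
    intro G _ _ hs hsolv
    classical
    haveI := hsolv
    set D := {d : ℕ | ∃ χ : IrrCharacter G, charDegree (χ : G → ℂ) = d} with hD
    have hDfin : D.Finite := Set.finite_range (fun χ : IrrCharacter G => charDegree (χ : G → ℂ))
    have h1D : 1 ∈ D := ⟨⟨fun _ => 1, Char.isIrrCharacter_const_one⟩, by simp [charDegree]⟩
    set F := fittingSubgroup G with hF
    haveI : Group.IsNilpotent F := Cores.fittingSubgroup_isNilpotent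
    by_cases htop : F = ⊤
    · have hone : 1 ≤ D.ncard := Nat.one_le_iff_ne_zero.2
        fun h => by rw [Set.ncard_eq_zero hDfin] at h; rw [h] at h1D; exact h1D
      refine hasNilSeries_mono ?_ hone
      refine ⟨fun i => if i = 0 then ⊥ else ⊤, by simp, fun i hi => ?_, ?_, fun i => ?_, fun i => ?_⟩
      · show (if i = 0 then ⊥ else ⊤) = ⊤
        rw [if_neg (by omega)]
      · refine monotone_nat_of_le_succ fun i => ?_
        show (if i = 0 then ⊥ else ⊤) ≤ if i + 1 = 0 then ⊥ else ⊤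
        rw [if_neg (Nat.succ_ne_zero i)]
        exact le_top
      · show (if i = 0 then (⊥ : Subgroup G) else ⊤).Normal
        split_ifs <;> infer_instance
      · obtain ⟨c, hc⟩ := (Subgroup.isNilpotent_iff_lowerCentralSeries F).1 ‹_›
        rw [htop] at hc
        refine ⟨c, ?_⟩
        show (if i + 1 = 0 then ⊥ else ⊤ : Subgroup G).lowerCentralSeries c ≤ _
        rw [if_neg (Nat.succ_ne_zero i), hc]
        exact bot_le
    · have hFne : F ≠ ⊥ := by
        intro hbot
        obtain ⟨n, hn⟩ := hsolv.solvable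
        have hall : ∀ j, derivedSeries G (n - j) = ⊥ := by
          intro j
          induction j with
          | zero => simpa using hn
          | succ j ihj =>
            by_cases h : n - j = 0
            · rwa [show n - (j + 1) = n - j by omega]
            · rw [show n - j = n - (j + 1) + 1 by omega, derivedSeries_succ] at ihj
              refine le_bot_iff.1 (hbot ▸ ?_)
              refine Cores.le_fittingSubgroup (derivedSeries_normal G _)
                ((Subgroup.isNilpotent_iff_lowerCentralSeries _).2 ⟨1, ?_⟩)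
              rw [Subgroup.lowerCentralSeries_succ, Subgroup.lowerCentralSeries_zero, ihj]
        have h0 := hall n
        rw [Nat.sub_self, derivedSeries_zero] at h0
        exact htop (by rw [hbot]; exact h0.symm)
      have hlt : Nat.card (G ⧸ F) < s := by
        rw [← hs, Subgroup.card_eq_card_quotient_mul_card_subgroup F]
        exact lt_mul_of_one_lt_right Nat.card_pos ((Subgroup.one_lt_card_iff_ne_bot F).2 hFne)
      set D' := {d : ℕ | ∃ χ : IrrCharacter (G ⧸ F), charDegree (χ : G ⧸ F → ℂ) = d} with hD'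
      obtain ⟨b, hb, hbmax⟩ := hDfin.exists_maximal ⟨1, h1D⟩
      have hsub : D' ⊆ D \ {b} := by
        rintro d ⟨β, rfl⟩
        refine ⟨⟨CharGraph.inflate F β, CharGraph.charDegree_inflate F β⟩, fun he => ?_⟩
        rw [Set.mem_singleton_iff] at he
        refine not_trivial_on_fitting htop (CharGraph.inflate F β) (fun ξ => ?_) fun f hf => ?_
        · rw [CharGraph.charDegree_inflate, he]
          rcases le_total (charDegree (ξ : G → ℂ)) b with h | h
          · exact h
          · exact hbmax ⟨ξ, rfl⟩ h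
        · rw [CharGraph.inflate_apply, CharGraph.inflate_apply,
            (QuotientGroup.eq_one_iff f).2 hf, QuotientGroup.mk_one]
      refine hasNilSeries_mono (hasNilSeries_of_quotient F (ih _ hlt (G ⧸ F) rfl inferInstance)) ?_
      have h2 := Set.ncard_le_ncard hsub (hDfin.subset Set.sdiff_subset)
      rw [Set.ncard_sdiff_singleton_of_mem hb] at h2
      have : 0 < D.ncard := (Set.ncard_pos hDfin).2 ⟨1, h1D⟩
      show D'.ncard + 1 ≤ D.ncard
      omega

end Cfsg.Agent.CharDeg
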