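import Cfsg.Agent.CharDeg.Tools

/-!
Garrison's theorem, character-theoretic core: a maximal degree does not survive in a quotient by
a subgroup acting as the whole kernel on an abelian complemented normal subgroup.
-/

set_option autoImplicit false
set_option linter.style.haveILetI false

noncomputable section

namespace Cfsg.Agent.CharDeg

open Cfsg
open scoped ComplexConjugate
open Cfsg.Agent.Char (irr_charDegree_spec)

universe u
variable {G : Type u} [Group G] [Finite G]

/-- A value with norm and real part equal to the natural number `n` is `n`. -/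
theorem eq_natCast_of_norm_le {z : ℂ} {n : ℕ} (h1 : ‖z‖ ≤ n) (h2 : (n : ℝ) ≤ z.re) : z = n := by
  have hre : z.re = n := le_antisymm ((Complex.re_le_norm z).trans h1) h2
  have hnorm : ‖z‖ = n := le_antisymm h1 (h2.trans (Complex.re_le_norm z))
  have h3 : ‖z‖ ^ 2 = z.re ^ 2 + z.im ^ 2 := by
    rw [Complex.sq_norm, Complex.normSq_apply]; ring
  rw [hre, hnorm] at h3
  exact Complex.ext (by simp [hre]) (by simp; nlinarith)

/-- Constituents inherit the kernel. -/
theorem constituent_apply_eq [Fintype G] {φ : G → ℂ} (hφ : IsCharacter G φ) {ξ : IrrCharacter G}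
    (hne : classInner φ (ξ : G → ℂ) ≠ 0) {g : G} (hg : φ g = φ 1) :
    (ξ : G → ℂ) g = (ξ : G → ℂ) 1 := by
  obtain ⟨k, hk⟩ := Char.isCharacter_classInner_nat hφ ξ
  have hk0 : 0 < k := Nat.pos_of_ne_zero fun h => hne (by rw [hk, h, Nat.cast_zero])
  have hrest := Char.isCharacter_sub_constituent hφ hk0 hk
  obtain ⟨r, hr⟩ := Char.isCharacter_one_nat hrest
  have h1 := Char.isCharacter_norm_le hrest g
  have h2 := Char.isCharacter_norm_le (Char.isCharacter_of_irr ξ.2) g
  rw [hr] at h1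
  rw [one_apply] at h2 ⊢
  refine eq_natCast_of_norm_le (by simpa using h2) ?_
  have e : (ξ : G → ℂ) g = φ 1 - (φ - (ξ : G → ℂ)) g := by rw [Pi.sub_apply, hg]; ring
  have e1 : φ 1 = ((r + charDegree (ξ : G → ℂ) : ℕ) : ℂ) := by
    rw [Pi.sub_apply, one_apply] at hr
    push_cast
    linear_combination hr
  rw [e, e1, Complex.sub_re, Complex.natCast_re, Nat.cast_add]
  have h3 := (Complex.re_le_norm ((φ - (ξ : G → ℂ)) g)).trans h1
  rw [Complex.natCast_re] at h3
  linarith

/-- The kernel of an induced character lies in the subgroup. -/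
theorem mem_of_indFun_eq [Fintype G] (H : Subgroup G) {θ : H → ℂ} (hθ : IsCharacter H θ)
    (h0 : θ 1 ≠ 0) {g : G} (h : indFun H θ g = indFun H θ 1) : g ∈ H := by
  classical
  by_contra hg
  obtain ⟨n, hn⟩ := Char.isCharacter_one_nat hθ
  have hn0 : 0 < n := Nat.pos_of_ne_zero fun h1 => h0 (by rw [hn, h1, Nat.cast_zero])
  have h1 : (∑ x : G, extendByZero H θ (x⁻¹ * g * x)).re < (Nat.card G : ℝ) * n := by
    rw [Complex.re_sum, show (Nat.card G : ℝ) * n = ∑ _x : G, (n : ℝ) by
      rw [Finset.sum_const, Finset.card_univ, nsmul_eq_mul, Nat.card_eq_fintype_card]]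
    refine Finset.sum_lt_sum (fun x _ => ?_) ⟨1, Finset.mem_univ _, ?_⟩
    · by_cases hx : x⁻¹ * g * x ∈ H
      · rw [CharInd.extendByZero_mem H θ hx]
        refine (Complex.re_le_norm _).trans ((Char.isCharacter_norm_le hθ _).trans ?_)
        simp [hn]
      · rw [CharInd.extendByZero_notMem H θ hx]
        simp
    · rw [CharInd.extendByZero_notMem H θ (by simpa using hg)]
      simpa using hn0
  have e := congrArg (fun z => (Nat.card H : ℂ) * z) h
  simp only [CharInd.card_mul_indFun, CharInd.indFun_one_apply, hn] at e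
  rw [← mul_assoc, ← Nat.cast_mul, H.card_mul_index] at e
  rw [e, Complex.mul_re, Complex.natCast_re, Complex.natCast_re, Complex.natCast_im,
    Complex.natCast_im] at h1
  linarith

variable {A : Subgroup G} [A.Normal]

/-- Over an extendible linear character some degree is at least index times `β(1)`. -/
theorem exists_deg_ge (w : A →* ℂˣ) (μ : lstab A w →* ℂˣ)
    (hμ : ∀ a : A, μ ⟨a, le_lstab w a.2⟩ = w a) (β : IrrCharacter (lstab A w))
    (hβ : ∀ a : A, (β : lstab A w → ℂ) ⟨a, le_lstab w a.2⟩ = (β : lstab A w → ℂ) 1) :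
    ∃ χ : IrrCharacter G,
      (lstab A w).index * charDegree (β : lstab A w → ℂ) ≤ charDegree (χ : G → ℂ) := by
  classical
  letI := Fintype.ofFinite G
  letI := Fintype.ofFinite (lstab A w)
  letI := Fintype.ofFinite A
  let ψ : lstab A w → ℂ := fun t => (β : lstab A w → ℂ) t * (μ t : ℂ)
  have hψ : IsIrrCharacter (lstab A w) ψ := by
    have h := Char.isIrrCharacter_mul_monoidHom β.2 μ
    first
      | exact h
      | (convert h using 1; funext t; simp [ψ, mul_comm])
  obtain ⟨χ, hχ⟩ := CharGraph.exists_irr_over (lstab A w) ⟨ψ, hψ⟩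
  refine ⟨χ, ?_⟩
  have hTc := CharInd.isCharacter_res (lstab A w) (Char.isCharacter_of_irr χ.2)
  obtain ⟨k, hk⟩ := Char.isCharacter_classInner_nat hTc ⟨ψ, hψ⟩
  have hk0 : 0 < k := Nat.pos_of_ne_zero fun h0 => hχ (by rw [h0, Nat.cast_zero] at hk; exact hk)
  have hsub := Char.isCharacter_sub_constituent hTc hk0 hk
  have hincl := CharInd.isCharacter_comp (Subgroup.inclusion (le_lstab w) : A →* lstab A w) hsub
  have hw := Char.isIrrCharacter_monoidHom w
  obtain ⟨r, hr⟩ := Char.isCharacter_classInner_nat hincl ⟨_, hw⟩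
  have hψA : ∀ a : A, ψ ⟨a, le_lstab w a.2⟩ =
      (charDegree (β : lstab A w → ℂ) : ℂ) * (w a : ℂ) := by
    intro a
    show (β : lstab A w → ℂ) _ * (μ _ : ℂ) = _
    rw [hμ, hβ, one_apply]
  have hsplit : classInner (fun a : A => (χ : G → ℂ) a) (fun a => (w a : ℂ)) =
      ((r + charDegree (β : lstab A w → ℂ) : ℕ) : ℂ) := by
    have e1 : (fun a : A => (χ : G → ℂ) a) =
        (fun a : A => ((fun t : lstab A w => (χ : G → ℂ) t) - ψ)
          (Subgroup.inclusion (le_lstab w) a)) +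
          (charDegree (β : lstab A w → ℂ) : ℂ) • (fun a : A => (w a : ℂ)) := by
      funext a
      simp only [Pi.add_apply, Pi.sub_apply, Pi.smul_apply, smul_eq_mul, ← hψA]
      exact (sub_add_cancel _ _).symm
    rw [e1, Char.classInner_add_left, Char.classInner_smul_left, Char.classInner_irr_self hw,
      mul_one, hr]
    push_cast
    rfl
  have hne : classInner (fun a : A => (χ : G → ℂ) a) (fun a => (w a : ℂ)) ≠ 0 := by
    rw [hsplit, Nat.cast_ne_zero]
    have := deg_pos β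
    omega
  obtain ⟨f, -, hf, -, hd⟩ := CharExt.clifford_data A χ.2 hw hne
  rw [hsplit] at hf
  have hf' : r + charDegree (β : lstab A w → ℂ) = f := by exact_mod_cast hf
  rw [one_apply, map_one, Units.val_one, mul_one, inertia_linFun] at hd
  have hd' : charDegree (χ : G → ℂ) = f * (lstab A w).index := by exact_mod_cast hd
  rw [hd', mul_comm f]
  exact Nat.mul_le_mul_left _ (by omega)

/-- A fixed shift of coprime order is trivial. -/
theorem shift_eq_one {p : ℕ} (hp : p.Prime) (hpA : ¬ p ∣ Nat.card A) {s : G} {x δ : A →* ℂˣ}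
    (hsp : s ^ p ∈ Subgroup.centralizer (A : Set G)) (hx : ∀ a, cjl A s x a = x a * δ a)
    (hδ : cjl A s δ = δ) (a : A) : δ a = 1 := by
  have hpow : ∀ (k : ℕ) (a : A), cjl A (s ^ k) x a = x a * δ a ^ k := by
    intro k
    induction k with
    | zero => simp
    | succ k ih =>
      intro a
      rw [pow_succ, ← cjl_cjl, cjl_apply, ih, ← cjl_apply s x, ← cjl_apply s δ, hδ, hx,
        mul_assoc, ← pow_succ']
  have h1 : δ a ^ p = 1 := by
    have := hpow p a
    rw [mem_lstab.1 (le_lstab_of_centralizer x hsp)] at this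
    exact left_eq_mul.1 this
  have h2 : δ a ^ Nat.card A = 1 := by rw [← map_pow, pow_card_eq_one', map_one]
  have := pow_gcd_eq_one.2 ⟨h1, h2⟩
  rwa [(hp.coprime_iff_not_dvd.2 hpA).gcd_eq_one, pow_one] at this

/-- An abelian group acting coprimely on an abelian normal subgroup has a linear character whose
stabiliser acts trivially. -/
theorem exists_regular {p : ℕ} (hp : p.Prime) (hpA : ¬ p ∣ Nat.card A)
    (hA : ∀ a ∈ A, ∀ b ∈ A, a * b = b * a) (M : Subgroup G)
    (hpow : ∀ x ∈ M, x ^ p ∈ Subgroup.centralizer (A : Set G))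
    (hcomm : ∀ x ∈ M, ∀ y ∈ M, x * y * x⁻¹ * y⁻¹ ∈ Subgroup.centralizer (A : Set G)) :
    ∃ w : A →* ℂˣ, ∀ g ∈ M, g ∈ lstab A w → g ∈ Subgroup.centralizer (A : Set G) := by
  haveI : Finite (A →* ℂˣ) := Char.monoidHom_complex_finite
  obtain ⟨l, hl⟩ := Finite.exists_min fun w : A →* ℂˣ => Nat.card ↥(lstab A w ⊓ M)
  refine ⟨l, fun s hsM hs => ?_⟩
  by_contra hsC
  obtain ⟨v, hv⟩ : ∃ v : A →* ℂˣ, s ∉ lstab A v := by
    by_contra hc
    push Not at hc
    exact hsC (mem_centralizer_of_forall_lstab hA hc)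
  have hswap : ∀ g ∈ M, ∀ h ∈ M, ∀ w : A →* ℂˣ, cjl A (g * h) w = cjl A (h * g) w := by
    intro g hg h hh w
    conv_lhs => rw [show g * h = (g * h * g⁻¹ * h⁻¹) * (h * g) by group, ← cjl_cjl,
      mem_lstab.1 (le_lstab_of_centralizer w (hcomm g hg h hh))]
  set u := cjl A s v * v⁻¹ with hu
  have hle : lstab A (l * u) ⊓ M ≤ lstab A l ⊓ M := by
    rintro g ⟨hg, hgM⟩
    refine ⟨?_, hgM⟩
    replace hg := mem_lstab.1 hg
    set δ := cjl A g l * l⁻¹ with hδdef
    set x := v * (cjl A g v)⁻¹ with hxdef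
    have hδ : cjl A s δ = δ := by
      rw [hδdef, cjl_mul, cjl_inv, cjl_cjl, hswap g hgM s hsM, ← cjl_cjl, mem_lstab.1 hs]
    have hx : ∀ a, cjl A s x a = x a * δ a := by
      intro a
      have e1 : cjl A s x = cjl A s v * (cjl A g (cjl A s v))⁻¹ := by
        rw [hxdef, cjl_mul, cjl_inv, cjl_cjl, hswap g hgM s hsM, ← cjl_cjl]
      have h4 : cjl A g l a * cjl A g u a = l a * u a := DFunLike.congr_fun hg a
      have e2 : cjl A g u a = cjl A g (cjl A s v) a * (cjl A g v a)⁻¹ := by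
        rw [hu, cjl_mul, cjl_inv, MonoidHom.mul_apply, MonoidHom.inv_apply]
      have e3 : u a = cjl A s v a * (v a)⁻¹ := rfl
      rw [e1]
      simp only [hxdef, hδdef, MonoidHom.mul_apply, MonoidHom.inv_apply]
      have e4 : cjl A g l a * (l a)⁻¹ = u a * (cjl A g u a)⁻¹ := by
        rw [mul_inv_eq_iff_eq_mul, mul_right_comm, eq_mul_inv_iff_mul_eq, h4, mul_comm]
      rw [e4, e2, e3, mul_inv_rev, inv_inv,
        show v a * (cjl A g v a)⁻¹ * (cjl A s v a * (v a)⁻¹ *
          (cjl A g v a * (cjl A g (cjl A s v) a)⁻¹)) =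
          (v a * (v a)⁻¹) * ((cjl A g v a)⁻¹ * cjl A g v a) *
            (cjl A s v a * (cjl A g (cjl A s v) a)⁻¹) by ac_rfl,
        mul_inv_cancel, inv_mul_cancel, one_mul, one_mul]
    refine mem_lstab.2 (MonoidHom.ext fun a => ?_)
    have := shift_eq_one hp hpA (hpow s hsM) hx hδ a
    rwa [hδdef, MonoidHom.mul_apply, MonoidHom.inv_apply, mul_inv_eq_one] at this
  have heq := Subgroup.eq_of_le_of_card_ge hle (hl (l * u))
  have hsu : s ∈ lstab A (l * u) := by
    have : s ∈ lstab A (l * u) ⊓ M := heq ▸ Subgroup.mem_inf.2 ⟨hs, hsM⟩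
    exact (Subgroup.mem_inf.1 this).1
  rw [mem_lstab, cjl_mul, mem_lstab.1 hs] at hsu
  have hu' : cjl A s u = u :=
    MonoidHom.ext fun a => mul_left_cancel (a := l a) (DFunLike.congr_fun hsu a)
  refine hv (mem_lstab.2 (MonoidHom.ext fun a => ?_))
  have := shift_eq_one hp hpA (hpow s hsM) (x := v) (δ := u) (fun a => by
    simp only [hu, MonoidHom.mul_apply, MonoidHom.inv_apply, mul_comm (cjl A s v a),
      mul_inv_cancel_left]) hu' a
  rwa [hu, MonoidHom.mul_apply, MonoidHom.inv_apply, mul_inv_eq_one] at this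

/-- The core contradiction. -/
theorem garrison_core {p : ℕ} (hp : p.Prime) (hpA : ¬ p ∣ Nat.card A)
    (hA : ∀ a ∈ A, ∀ b ∈ A, a * b = b * a) (H : Subgroup G)
    (hAH : ∀ g : G, ∃ a ∈ A, ∃ h ∈ H, g = a * h) (hAHd : A ⊓ H = ⊥)
    (F M : Subgroup G) [F.Normal] [M.Normal] (hAF : A ≤ F) (hFM : F ≤ M)
    (hFC : F ≤ Subgroup.centralizer (A : Set G))
    (hMC : ∀ x ∈ M, x ∈ Subgroup.centralizer (A : Set G) → x ∈ F)
    (hpow : ∀ x ∈ M, x ^ p ∈ F) (hcomm : ∀ x ∈ M, ∀ y ∈ M, x * y * x⁻¹ * y⁻¹ ∈ F)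
    (χ : IrrCharacter G) (hker : ∀ f ∈ F, (χ : G → ℂ) f = (χ : G → ℂ) 1)
    (hnk : ¬ ∀ x ∈ M, (χ : G → ℂ) x = (χ : G → ℂ) 1)
    (hmax : ∀ ξ : IrrCharacter G, charDegree (ξ : G → ℂ) ≤ charDegree (χ : G → ℂ)) : False := by
  classical
  letI := Fintype.ofFinite G
  obtain ⟨l, hl⟩ := exists_regular hp hpA hA M (fun x hx => hFC (hpow x hx))
    (fun x hx y hy => hFC (hcomm x hx y hy))
  set T := lstab A l with hT
  choose ac hac hc hhc hdec using hAH
  have huniq : ∀ {a a' h h' : G}, a ∈ A → a' ∈ A → h ∈ H → h' ∈ H → a * h = a' * h' → a = a' := by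
    intro a a' h h' ha ha' hh hh' e
    have h1 : a'⁻¹ * a ∈ A ⊓ H := by
      refine Subgroup.mem_inf.2 ⟨A.mul_mem (A.inv_mem ha') ha, ?_⟩
      rw [show a'⁻¹ * a = a'⁻¹ * (a * h) * h⁻¹ by group, e, inv_mul_cancel_left]
      exact H.mul_mem hh' (H.inv_mem hh)
    rw [hAHd, Subgroup.mem_bot, inv_mul_eq_one] at h1
    exact h1.symm
  let μ : T →* ℂˣ := MonoidHom.mk' (fun t => l ⟨ac t, hac t⟩) fun t t' => by
    have hh : hc t ∈ T := by
      rw [show hc (t : G) = (ac (t : G))⁻¹ * t by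
        conv_rhs => arg 2; rw [hdec t]
        group]
      exact T.mul_mem (T.inv_mem (le_lstab l (hac t))) t.2
    have e : (ac (t : G) * (hc t * ac t' * (hc t)⁻¹)) * (hc t * hc t') =
        ac ((t * t' : T) : G) * hc ((t * t' : T) : G) := by
      calc (ac (t : G) * (hc t * ac t' * (hc t)⁻¹)) * (hc t * hc t')
          = (ac (t : G) * hc t) * (ac t' * hc t') := by group
        _ = (t : G) * t' := by rw [← hdec, ← hdec]
        _ = _ := by rw [← hdec, Subgroup.coe_mul]
    have hconj : hc t * ac t' * (hc t)⁻¹ ∈ A :=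
      Subgroup.Normal.conj_mem inferInstance _ (hac t') _
    have h1 := huniq (A.mul_mem (hac t) hconj) (hac ((t * t' : T) : G))
      (H.mul_mem (hhc t) (hhc t')) (hhc ((t * t' : T) : G)) e
    rw [show (⟨ac ((t * t' : T) : G), hac ((t * t' : T) : G)⟩ : A) =
      ⟨ac t, hac t⟩ * MulAut.conjNormal (hc t : G) ⟨ac t', hac t'⟩ from
        Subtype.ext (by simpa using h1.symm), map_mul, ← cjl_apply, mem_lstab.1 hh]
  have hμ : ∀ a : A, μ ⟨a, le_lstab l a.2⟩ = l a := by
    intro a
    show l ⟨ac (a : G), hac (a : G)⟩ = l a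
    refine congrArg l (Subtype.ext ?_)
    exact huniq (hac _) a.2 (hhc _) H.one_mem (by rw [mul_one, ← hdec])
  letI := Fintype.ofFinite T
  have hres := CharInd.isCharacter_res T (Char.isCharacter_of_irr χ.2)
  obtain ⟨β, n, hn, hβ⟩ := Char.exists_irr_constituent hres
    (fun h => Char.irr_one_ne_zero χ.2 (congrFun h 1))
  have hne : classInner (fun t : T => (χ : G → ℂ) t) (β : T → ℂ) ≠ 0 := by
    rw [hβ]; exact_mod_cast hn.ne'
  obtain ⟨ξ, hξ⟩ := exists_deg_ge l μ hμ β fun a =>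
    constituent_apply_eq hres hne (hker a (hAF a.2))
  have hind : indFun T (β : T → ℂ) = (χ : G → ℂ) := by
    refine CharInd.eq_of_constituent_of_degree
      (CharInd.isCharacter_indFun T (Char.isCharacter_of_irr β.2)) χ.2 ?_ ?_
    · rw [CharInd.classInner_indFun_left T _ (Char.irr_isClassFunction χ.2), ← Char.classInner_conj,
        hβ, map_natCast]
      exact_mod_cast hn.ne'
    · rw [CharInd.indFun_one_apply, one_apply, one_apply, ← Nat.cast_mul, Complex.natCast_re,
        Complex.natCast_re]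
      exact_mod_cast hξ.trans (hmax ξ)
  have hvanish : ∀ x ∈ M, x ∉ F → (χ : G → ℂ) x = 0 := by
    intro x hx hxF
    rw [← hind, CharInd.indFun_apply, Finset.sum_eq_zero, mul_zero]
    intro y _
    rw [CharInd.extendByZero_notMem T _ fun h => hxF ?_]
    have h1 : y⁻¹ * x * y ∈ M := by
      simpa using (inferInstance : M.Normal).conj_mem x hx y⁻¹
    have h2 := hMC _ h1 (hl _ h1 h)
    have h3 := (inferInstance : F.Normal).conj_mem _ h2 y
    simpa [mul_assoc] using h3
  letI := Fintype.ofFinite M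
  have hcon : classInner (fun k : M => (χ : G → ℂ) k) (fun _ : M => (1 : ℂ)) ≠ 0 := by
    rw [classInner]
    refine mul_ne_zero (inv_ne_zero (Nat.cast_ne_zero.2 Nat.card_pos.ne')) ?_
    have e : ∀ k : M, (χ : G → ℂ) k * conj (1 : ℂ) =
        if (k : G) ∈ F then (charDegree (χ : G → ℂ) : ℂ) else 0 := by
      intro k
      rw [map_one, mul_one]
      by_cases hk : (k : G) ∈ F
      · rw [if_pos hk, hker k hk, one_apply]
      · rw [if_neg hk, hvanish k k.2 hk]
    rw [Finset.sum_congr rfl fun k _ => e k, ← Finset.sum_filter, Finset.sum_const, nsmul_eq_mul]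
    refine mul_ne_zero (Nat.cast_ne_zero.2 (Finset.card_ne_zero.2 ⟨1, ?_⟩))
      (Nat.cast_ne_zero.2 (deg_pos χ).ne')
    simp [F.one_mem]
  have hcl := CharInd.clifford M χ.2 (Char.isIrrCharacter_const_one (G := M)) hcon
  refine hnk fun k hk => ?_
  have h1 := congrFun hcl ⟨k, hk⟩
  have h2 := congrFun hcl 1
  simp only [Pi.smul_apply, Finset.sum_apply, OneMemClass.coe_one] at h1 h2
  rw [h1, h2]
  congr 1
  refine Finset.sum_congr rfl fun ψ hψ => ?_
  obtain ⟨g, rfl⟩ := (CharInd.mem_conjClass M).1 hψ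
  simp [CharInd.conjChar_apply]

end Cfsg.Agent.CharDeg
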