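import Cfsg.Agent.CharInd.Monomial

/-!
Groups with an abelian normal subgroup whose quotient is a `p`-group are monomial.
-/

set_option autoImplicit false
set_option linter.style.haveILetI false

noncomputable section

namespace Cfsg.Agent.CharDeg

open Cfsg
open Cfsg.Agent.CharInd

universe u

/-- An abelian normal subgroup with `p`-group quotient makes the group monomial. -/
theorem monomial_of_abelian_pQuotient {p : ℕ} [Fact p.Prime] :
    ∀ (n : ℕ) (G : Type u) [Group G] [Fintype G],
      Nat.card G = n → ∀ N : Subgroup G, N.Normal → (∀ a ∈ N, ∀ b ∈ N, a * b = b * a) →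
      (∀ g : G, ∃ k : ℕ, g ^ p ^ k ∈ N) → ∀ χ : G → ℂ, IsIrrCharacter G χ →
      ∃ (H : Subgroup G) (lam : H →* ℂˣ), χ = indFun H (fun h => (lam h : ℂ)) := by
  intro n
  induction n using Nat.strong_induction_on with
  | _ n ih =>
    intro G _ _ hn N hN hNc hNp χ hχ
    classical
    haveI := hN
    obtain ⟨d, ρ, hρ, rfl⟩ := hχ
    let K := MonoidHom.ker (ρ : G →* Module.End ℂ (Fin d → ℂ))
    by_cases hK : K = ⊥
    swap
    · letI := Fintype.ofFinite (G ⧸ K)
      let σ : Representation ℂ (G ⧸ K) (Fin d → ℂ) :=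
        QuotientGroup.lift K (ρ : G →* Module.End ℂ (Fin d → ℂ)) le_rfl
      have hσq : (σ.comp (QuotientGroup.mk' K) : Representation ℂ G (Fin d → ℂ)) = ρ :=
        MonoidHom.ext fun g => rfl
      have hσ : σ.IsIrreducible := by
        rw [← Cfsg.Agent.Char.isIrreducible_comp_iff σ (QuotientGroup.mk' K)
          (QuotientGroup.mk'_surjective K), hσq]
        exact hρ
      have hlt : Nat.card (G ⧸ K) < n := by
        rw [← hn, Subgroup.card_eq_card_quotient_mul_card_subgroup K]
        exact lt_mul_of_one_lt_right Nat.card_pos ((Subgroup.one_lt_card_iff_ne_bot K).2 hK)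
      obtain ⟨H, lam, hH⟩ := ih _ hlt (G ⧸ K) rfl (N.map (QuotientGroup.mk' K))
        (hN.map _ (QuotientGroup.mk'_surjective K))
        (by
          rintro _ ⟨a, ha, rfl⟩ _ ⟨b, hb, rfl⟩
          rw [← map_mul, ← map_mul, hNc a ha b hb])
        (fun q => by
          obtain ⟨g, rfl⟩ := QuotientGroup.mk'_surjective K q
          obtain ⟨k, hk⟩ := hNp g
          exact ⟨k, g ^ p ^ k, hk, map_pow _ _ _⟩)
        σ.character ⟨d, σ, hσ, rfl⟩
      refine ⟨H.comap (QuotientGroup.mk' K),
        lam.comp ((QuotientGroup.mk' K).subgroupComap H), ?_⟩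
      refine Eq.trans ?_ (indFun_inflate K H (fun h => (lam h : ℂ))).symm
      funext g
      exact congrFun hH (QuotientGroup.mk' K g)
    have hinj : ∀ g, ρ g = 1 → g = 1 := fun g hg =>
      Subgroup.mem_bot.1 (hK ▸ (MonoidHom.mem_ker.2 hg : g ∈ K))
    have hirr : Cfsg.IsIrrCharacter G ρ.character := ⟨d, ρ, hρ, rfl⟩
    by_cases hAz : N ≤ Subgroup.center G
    · have hP : IsPGroup p (G ⧸ Subgroup.center G) := fun q => by
        obtain ⟨g, rfl⟩ := QuotientGroup.mk_surjective q
        obtain ⟨k, hk⟩ := hNp g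
        exact ⟨k, by rw [← QuotientGroup.mk_pow, QuotientGroup.eq_one_iff]; exact hAz hk⟩
      haveI : Group.IsNilpotent G := Group.of_quotient_center_nilpotent hP.isNilpotent
      exact monomial_of_nilpotent (Nat.card G) G rfl _ hirr
    letI := Fintype.ofFinite N
    obtain ⟨θ, e, hθ, he, hres, hdeg⟩ := clifford_exists N hirr
    obtain ⟨lamA, hlamA⟩ := Cfsg.Agent.Char.irr_exists_monoidHom_of_comm
      (fun a b : N => Subtype.ext (hNc a a.2 b b.2)) hθ
    have h0 : Cfsg.classInner (fun a : N => ρ.character a) θ ≠ 0 := by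
      rw [hres, Cfsg.Agent.Char.classInner_smul_left, Cfsg.Agent.Char.classInner_sum_left,
        Finset.sum_eq_single_of_mem θ ((mem_conjClass N).2 ⟨1, (conjChar_one N θ).symm⟩),
        Cfsg.Agent.Char.classInner_irr_self hθ, mul_one]
      · exact_mod_cast he.ne'
      intro φ hφ hne
      obtain ⟨x, rfl⟩ := (mem_conjClass N).1 hφ
      exact Cfsg.Agent.Char.classInner_irr_ne (conjChar_irr N x hθ) hθ hne
    have hT : conjStab N θ ≠ ⊤ := by
      intro htop
      apply hAz
      intro a ha
      have hone : conjClass N θ = {θ} := by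
        apply Finset.eq_singleton_iff_unique_mem.2
        refine ⟨(mem_conjClass N).2 ⟨1, (conjChar_one N θ).symm⟩, fun φ hφ => ?_⟩
        obtain ⟨x, rfl⟩ := (mem_conjClass N).1 hφ
        exact (mem_conjStab N).1 (htop ▸ Subgroup.mem_top x)
      rw [hone, Finset.sum_singleton] at hres
      rw [hone, Finset.card_singleton, Nat.cast_one, mul_one, Representation.char_one] at hdeg
      have hθ1 : θ 1 = 1 := by rw [hlamA, map_one, Units.val_one]
      rw [hθ1, mul_one] at hdeg
      have hval : ρ.character a = (e : ℂ) * θ ⟨a, ha⟩ := congrFun hres ⟨a, ha⟩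
      have hnorm : ‖ρ.character a‖ = (Module.finrank ℂ (Fin d → ℂ) : ℝ) := by
        have hfin : (orderOf (⟨a, ha⟩ : N)) ≠ 0 := (orderOf_pos _).ne'
        have hu : ‖θ ⟨a, ha⟩‖ = 1 := by
          rw [hlamA]
          refine Complex.norm_eq_one_of_pow_eq_one ?_ hfin
          rw [← Units.val_pow_eq_pow_val, ← map_pow, pow_orderOf_eq_one, map_one, Units.val_one]
        rw [hval, norm_mul, hu, mul_one, ← hdeg, Complex.norm_natCast]
      obtain ⟨ω, hω⟩ := (Cfsg.Agent.Char.norm_character_eq_iff ρ a).1 hnorm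
      rw [Subgroup.mem_center_iff]
      intro g
      have hcom : ρ (g * a * g⁻¹ * a⁻¹) = 1 := by
        rw [map_mul, map_mul, map_mul, hω]
        have h2 : (ω • LinearMap.id : Module.End ℂ (Fin d → ℂ)) * ρ a⁻¹ = 1 := by
          rw [← hω, ← map_mul, mul_inv_cancel, map_one]
        rw [show ρ g * (ω • LinearMap.id) * ρ g⁻¹ =
            (ω • LinearMap.id : Module.End ℂ (Fin d → ℂ)) from ?_, h2]
        rw [show (LinearMap.id : Module.End ℂ (Fin d → ℂ)) = 1 from rfl, mul_smul_comm, mul_one,
          smul_mul_assoc, ← map_mul, mul_inv_cancel, map_one]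
      have := hinj _ hcom
      rw [mul_inv_eq_one, mul_inv_eq_iff_eq_mul] at this
      exact this
    obtain ⟨ψ, hψ, hψind⟩ := exists_induced_from_stab N hirr hθ h0
    letI := Fintype.ofFinite (conjStab N θ)
    have hlt : Nat.card (conjStab N θ) < n := by
      rw [← hn]
      exact lt_of_le_of_ne (Subgroup.card_le_card_group _)
        fun h => hT ((Subgroup.card_eq_iff_eq_top _).1 h)
    obtain ⟨H, lam, hH⟩ := ih _ hlt (conjStab N θ) rfl (N.subgroupOf (conjStab N θ))
      Subgroup.normal_subgroupOf (fun a ha b hb => Subtype.ext (hNc _ ha _ hb))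
      (fun t => by
        obtain ⟨k, hk⟩ := hNp (t : G)
        exact ⟨k, by rw [Subgroup.mem_subgroupOf, Subgroup.coe_pow]; exact hk⟩) ψ hψ
    refine ⟨H.map (conjStab N θ).subtype, lam.comp
      (Subgroup.equivMapOfInjective H _ (conjStab N θ).subtype_injective).symm.toMonoidHom, ?_⟩
    rw [← hψind, hH, indFun_indFun_map]
    rfl

end Cfsg.Agent.CharDeg
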