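import Cfsg.Agent.CharDeg.PrimeDegrees
import Cfsg.Agent.CharDeg.MonomialQuotient
import Cfsg.Agent.CharGraph.Dichotomy
import Cfsg.Agent.S0168

/-!
Groups with three character degrees have derived length at most three.
-/

set_option autoImplicit false
set_option linter.style.haveILetI false

noncomputable section

namespace Cfsg.Agent.CharDeg

open Cfsg
open scoped ComplexConjugate commutatorElement
open Cfsg.Agent.Char (irr_charDegree_spec)

universe u
variable {G : Type u} [Group G] [Finite G] {a b m : ℕ}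

/-- Two degrees: the second derived subgroup is trivial. -/
theorem derived_two_eq_bot (hm1 : m ≠ 1)
    (hcd : ∀ χ : IrrCharacter G, charDegree (χ : G → ℂ) = 1 ∨ charDegree (χ : G → ℂ) = m) :
    derivedSeries G 2 = ⊥ := by
  classical
  have h : ∀ x ∈ commutator G, ∀ y ∈ commutator G, x * y = y * x := by
    by_cases hm : ∃ χ : IrrCharacter G, charDegree (χ : G → ℂ) = m
    · rcases two_degrees_structure hcd hm hm1 with
        ⟨A, hAn, hAc, hAi⟩ | ⟨p, e, hp, -, P, A, hPn, hAn, hPp, hAc, hd, hs⟩
      · haveI := hAn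
        have hm2 : 2 ≤ m := by
          obtain ⟨χ, hχ⟩ := hm
          have := deg_pos χ
          omega
        have hc : ∀ x y : G ⧸ A, x * y = y * x := comm_of_forall_linear fun β => by
          refine (degrees_quotient hcd A β).resolve_right fun h => ?_
          have h1 := deg_sq_le_card β
          rw [h, ← Subgroup.index_eq_card, hAi] at h1
          nlinarith
        have hle : commutator G ≤ A := by
          rw [commutator_def, Subgroup.commutator_le]
          intro x _ y _
          rw [← QuotientGroup.eq_one_iff, commutatorElement_def, QuotientGroup.mk_mul,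
            QuotientGroup.mk_mul, QuotientGroup.mk_mul, QuotientGroup.mk_inv, QuotientGroup.mk_inv,
            mul_inv_eq_one, mul_inv_eq_iff_eq_mul]
          exact hc _ _
        exact fun x hx y hy => hAc x (hle hx) y (hle hy)
      · haveI : Fact p.Prime := ⟨hp⟩
        have hZ := isPGroup_quotient_center_of_prod P A hPn hAn hPp hAc hd hs
        haveI : Group.IsNilpotent G := Group.of_quotient_center_nilpotent hZ.isNilpotent
        exact commutator_comm_of_monomial (fun {_} χ hχ =>
          CharInd.monomial_of_nilpotent (Nat.card G) G rfl χ hχ) hcd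
    · push Not at hm
      intro x _ y _
      exact comm_of_forall_linear (fun χ => (hcd χ).resolve_right (hm χ)) x y
  rw [derivedSeries_succ, derivedSeries_one, Subgroup.commutator_eq_bot_iff_le_centralizer]
  exact fun x hx => Subgroup.mem_centralizer_iff.2 fun y hy => h y hy x hx

theorem derived_succ_le_map {L : Subgroup G} (h : commutator G ≤ L) (k : ℕ) :
    derivedSeries G (k + 1) ≤ (derivedSeries L k).map L.subtype := by
  induction k with
  | zero =>
    rw [derivedSeries_one, derivedSeries_zero, ← MonoidHom.range_eq_map, Subgroup.range_subtype]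
    exact h
  | succ k ih =>
    rw [derivedSeries_succ G (k + 1), derivedSeries_succ L k, Subgroup.map_commutator]
    exact Subgroup.commutator_mono ih ih

theorem exists_deg_dvd_index (N : Subgroup G) [N.Normal] (θ : IrrCharacter N) :
    ∃ χ : IrrCharacter G, charDegree (θ : N → ℂ) ∣ charDegree (χ : G → ℂ) ∧
      charDegree (χ : G → ℂ) / charDegree (θ : N → ℂ) ∣ N.index := by
  letI := Fintype.ofFinite G
  letI := Fintype.ofFinite N
  obtain ⟨χ, hχ⟩ := CharGraph.exists_irr_over N θ
  exact ⟨χ, CharDeep.degree_ratio_dvd_index N χ.2 θ.2 hχ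
    (irr_charDegree_spec χ.2).2 (irr_charDegree_spec θ.2).2⟩

/-- Coprime degrees and a solvable non-abelian quotient: a normal subgroup with two degrees. -/
theorem exists_index_two_degrees (ha : 1 < a) (hb : 1 < b) (hab : Nat.Coprime a b)
    (hcd : ∀ χ : IrrCharacter G,
      charDegree (χ : G → ℂ) = 1 ∨ charDegree (χ : G → ℂ) = a ∨ charDegree (χ : G → ℂ) = b)
    (hea : ∃ χ : IrrCharacter G, charDegree (χ : G → ℂ) = a)
    (heb : ∃ χ : IrrCharacter G, charDegree (χ : G → ℂ) = b)
    (N₀ : Subgroup G) [N₀.Normal] [Group.IsSolvable (G ⧸ N₀)] (hN₀ : ¬ commutator G ≤ N₀) :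
    ∃ (K : Subgroup G) (g : ℕ), commutator G ≤ K ∧ 1 < g ∧
      (K.index = a ∧ g = b ∨ K.index = b ∧ g = a) ∧
      ∀ ψ : IrrCharacter K, charDegree (ψ : K → ℂ) = 1 ∨ charDegree (ψ : K → ℂ) = g := by
  classical
  letI := Fintype.ofFinite G
  obtain ⟨N, ⟨hNn, hN₀N, hNna⟩, hmax⟩ :=
    ({L : Subgroup G | L.Normal ∧ N₀ ≤ L ∧ ¬ commutator G ≤ L}.toFinite).exists_maximal
      ⟨N₀, inferInstance, le_rfl, hN₀⟩
  haveI := hNn
  set π := QuotientGroup.mk' N with hπ
  have hπs : Function.Surjective π := QuotientGroup.mk'_surjective N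
  haveI : Group.IsSolvable (G ⧸ N) :=
    Group.isSolvable_of_surjective (f := QuotientGroup.map N₀ N (MonoidHom.id G) fun x hx => hN₀N hx)
      (fun q => by
        obtain ⟨g, rfl⟩ := QuotientGroup.mk_surjective q
        exact ⟨(g : G ⧸ N₀), rfl⟩)
  have hcomQ : commutator (G ⧸ N) = (commutator G).map π := by
    rw [commutator_def, commutator_def, Subgroup.map_commutator,
      Subgroup.map_top_of_surjective π hπs]
  have hnaQ : commutator (G ⧸ N) ≠ ⊥ := by
    rw [hcomQ, Ne, Subgroup.map_eq_bot_iff, QuotientGroup.ker_mk']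
    exact hNna
  have hmemcd : ∀ d ∈ charDegrees G, d = 1 ∨ d = a ∨ d = b := by
    rintro d ⟨χ, rfl⟩
    exact hcd χ
  rcases CharGraph.shape_of_minimal hnaQ (fun L hL hLne => by
    rw [hcomQ, Subgroup.map_le_iff_le_comap]
    by_contra hcon
    have hle : N ≤ L.comap π := fun x hx => by
      rw [Subgroup.mem_comap, show π x = 1 from (QuotientGroup.eq_one_iff x).2 hx]
      exact L.one_mem
    have := le_antisymm (hmax ⟨hL.comap π, hN₀N.trans hle, hcon⟩ hle) hle
    apply hLne
    rw [← Subgroup.map_comap_eq_self_of_surjective hπs L, this, QuotientGroup.map_mk'_self]) with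
    ⟨p, hp, hQ⟩ | ⟨M, q, hq, hMn, hcM, hMne, hMtop, habM, hexp, hfree⟩
  · exfalso
    obtain ⟨j, hj, h1, h2⟩ := CharGraph.alternative_of_pGroup_quotient hp N hQ hNna
    have hpj : 1 < p ^ j := Nat.one_lt_pow hj.ne' hp.one_lt
    have key : ∀ c c' : ℕ, 1 < c → 1 < c' → Nat.Coprime c c' → c' ∈ charDegrees G →
        (∀ d ∈ charDegrees G, d = 1 ∨ d = c ∨ d = c') → p ^ j ≠ c := by
      intro c c' hc hc' hcc hmem hall he
      rcases h2 c' hmem with hpd | hpd
      · exact hp.not_dvd_one (hcc ▸ Nat.dvd_gcd (he ▸ dvd_pow_self p hj.ne') hpd)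
      · rw [he] at hpd
        rcases hall _ hpd with h | h | h
        · exact absurd (Nat.eq_one_of_mul_eq_one_left h) hc'.ne'
        · exact absurd ((Nat.mul_eq_left (by omega)).1 h) hc'.ne'
        · exact absurd ((Nat.mul_eq_right (by omega)).1 h) hc.ne'
    obtain ⟨χa, hχa⟩ := hea
    obtain ⟨χb, hχb⟩ := heb
    have hma : a ∈ charDegrees G := hχa ▸ CharGraph.mem_charDegrees χa.2
    have hmb : b ∈ charDegrees G := hχb ▸ CharGraph.mem_charDegrees χb.2
    rcases hmemcd _ h1 with h | h | h
    · exact hpj.ne' h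
    · exact key a b ha hb hab hmb hmemcd h
    · exact key b a hb ha hab.symm hma (fun d hd => by rcases hmemcd d hd with h | h | h <;> simp [h]) h
  set K := M.comap π with hK
  haveI : K.Normal := hMn.comap π
  letI := Fintype.ofFinite K
  have hGK : commutator G ≤ K := Subgroup.map_le_iff_le_comap.1 (hcomQ ▸ hcM)
  have hmain := CharGraph.index_mul_mem_charDegrees K N hq hGK
    (fun x hx y hy => (QuotientGroup.eq_one_iff _).1 (by
      have h := habM _ hx _ hy
      change π (x * y * x⁻¹ * y⁻¹) = 1
      rw [map_mul, map_mul, map_mul, map_inv, map_inv, h]; group))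
    (fun k hk => (QuotientGroup.eq_one_iff _).1 (by
      change π (k ^ q) = 1
      rw [map_pow]; exact hexp _ hk))
    (by
      obtain ⟨m, hm, hm1⟩ := (Subgroup.ne_bot_iff_exists_ne_one.1 hMne |>
        fun ⟨x, hx⟩ => (⟨x, x.2, fun h => hx (Subtype.ext h)⟩ : ∃ m, m ∈ M ∧ m ≠ 1))
      obtain ⟨k, rfl⟩ := hπs m
      exact ⟨k, hm, fun h => hm1 ((QuotientGroup.eq_one_iff k).2 h)⟩)
    (fun g hg k hk h => (QuotientGroup.eq_one_iff _).1 (hfree (π g) hg (π k) hk (by
      have h' : π (g * k * g⁻¹ * k⁻¹) = 1 := (QuotientGroup.eq_one_iff _).2 h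
      rw [map_mul, map_mul, map_mul, map_inv, map_inv, mul_inv_eq_one,
        mul_inv_eq_iff_eq_mul] at h'
      exact h')))
  have hf1 : 1 < K.index := by
    rw [hK, Subgroup.index_comap_of_surjective M hπs]
    exact Nat.one_lt_iff_ne_zero_and_ne_one.2
      ⟨Subgroup.index_ne_zero_of_finite, fun h => hMtop (Subgroup.index_eq_one.1 h)⟩
  -- the two degrees, named
  obtain ⟨f, g, hfg, hf, hg1, hall, heg, hor⟩ : ∃ f g : ℕ, Nat.Coprime f g ∧ K.index = f ∧ 1 < g ∧
      (∀ d ∈ charDegrees G, d = 1 ∨ d = f ∨ d = g) ∧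
      (∃ χ : IrrCharacter G, charDegree (χ : G → ℂ) = g) ∧
      (K.index = a ∧ g = b ∨ K.index = b ∧ g = a) := by
    have h := hmain (Char.trivialIrr K) (by
      rw [show charDegree ((Char.trivialIrr K : IrrCharacter K) : K → ℂ) = 1 by
        simp [charDegree, show ((Char.trivialIrr K : IrrCharacter K) : K → ℂ) 1 = 1 from rfl]]
      exact hq.not_dvd_one)
    rw [show charDegree ((Char.trivialIrr K : IrrCharacter K) : K → ℂ) = 1 by
      simp [charDegree, show ((Char.trivialIrr K : IrrCharacter K) : K → ℂ) 1 = 1 from rfl],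
      mul_one] at h
    rcases hmemcd _ h with h | h | h
    · exact absurd h hf1.ne'
    · exact ⟨a, b, hab, h, hb, hmemcd, heb, Or.inl ⟨h, rfl⟩⟩
    · exact ⟨b, a, hab.symm, h, ha, fun d hd => by rcases hmemcd d hd with h | h | h <;> simp [h], hea,
        Or.inr ⟨h, rfl⟩⟩
  have hsmall : ∀ ψ : IrrCharacter K, ¬ q ∣ charDegree (ψ : K → ℂ) → charDegree (ψ : K → ℂ) = 1 := by
    intro ψ hψ
    rcases hall _ (hmain ψ hψ) with h | h | h
    · exact Nat.eq_one_of_mul_eq_one_left h
    · rw [hf] at h
      exact (Nat.mul_eq_left (by omega)).1 h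
    · have h1 : f ∣ g := Dvd.intro (charDegree (ψ : K → ℂ)) (hf ▸ h)
      have h2 : f = 1 := Nat.eq_one_of_dvd_coprimes hfg dvd_rfl h1
      omega
  have hqg : q ∣ g := by
    obtain ⟨χ, hχ⟩ := heg
    obtain ⟨ψ, e, he, hψ⟩ := Char.exists_irr_constituent
      (Char.isCharacter_restrict (Char.isCharacter_of_irr χ.2) K)
      (fun h => Char.irr_one_ne_zero χ.2 (congrFun h 1))
    obtain ⟨hdvd, hidx⟩ := CharDeep.degree_ratio_dvd_index K χ.2 ψ.2
      (by rw [hψ]; exact_mod_cast he.ne') (irr_charDegree_spec χ.2).2 (irr_charDegree_spec ψ.2).2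
    rw [hχ] at hdvd hidx
    by_contra hqg
    rw [hsmall ψ fun h => hqg (h.trans hdvd), Nat.div_one, hf] at hidx
    exact hg1.ne' (Nat.eq_one_of_dvd_coprimes hfg hidx dvd_rfl)
  have hK2 : ∀ ψ : IrrCharacter K,
      charDegree (ψ : K → ℂ) = 1 ∨ charDegree (ψ : K → ℂ) = g := by
    intro ψ
    by_cases hqψ : q ∣ charDegree (ψ : K → ℂ)
    · refine Or.inr ?_
      obtain ⟨χ, hdvd, hidx⟩ := exists_deg_dvd_index K ψ
      rw [hf] at hidx
      rcases hall _ (CharGraph.mem_charDegrees χ.2) with h | h | h <;> rw [h] at hdvd hidx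
      · exact absurd (hqψ.trans hdvd) hq.not_dvd_one
      · exact absurd (hfg ▸ Nat.dvd_gcd (hqψ.trans hdvd) hqg) hq.not_dvd_one
      · have h1 : g / charDegree (ψ : K → ℂ) = 1 :=
          Nat.eq_one_of_dvd_coprimes hfg hidx (Nat.div_dvd_of_dvd hdvd)
        rw [← Nat.div_mul_cancel hdvd, h1, one_mul]
    · exact Or.inl (hsmall ψ hqψ)
  exact ⟨K, g, hGK, hg1, hor, hK2⟩

/-- Coprime degrees and a solvable non-abelian quotient. -/
theorem derived_three_of_solvable_quotient (ha : 1 < a) (hb : 1 < b) (hab : Nat.Coprime a b)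
    (hcd : ∀ χ : IrrCharacter G,
      charDegree (χ : G → ℂ) = 1 ∨ charDegree (χ : G → ℂ) = a ∨ charDegree (χ : G → ℂ) = b)
    (hea : ∃ χ : IrrCharacter G, charDegree (χ : G → ℂ) = a)
    (heb : ∃ χ : IrrCharacter G, charDegree (χ : G → ℂ) = b)
    (N₀ : Subgroup G) [N₀.Normal] [Group.IsSolvable (G ⧸ N₀)] (hN₀ : ¬ commutator G ≤ N₀) :
    derivedSeries G 3 = ⊥ := by
  obtain ⟨K, g, hGK, hg1, -, hK2⟩ := exists_index_two_degrees ha hb hab hcd hea heb N₀ hN₀
  rw [← le_bot_iff]
  refine (derived_succ_le_map hGK 2).trans ?_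
  rw [derived_two_eq_bot hg1.ne' hK2, Subgroup.map_bot]

/-- A shifted inner product. -/
theorem classInner_mul_left [Fintype G] (f g h : G → ℂ) :
    classInner (fun x => f x * g x) h = classInner g (fun x => conj (f x) * h x) := by
  simp only [classInner, map_mul, Complex.conj_conj]
  congr 1
  exact Finset.sum_congr rfl fun x _ => by ring

/-- Two coprime degrees cannot occur when all proper quotients are abelian. -/
theorem not_coprime_of_all_quotients_abelian (ha : 1 < a) (hlt : a < b) (hab : Nat.Coprime a b)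
    (hcd : ∀ χ : IrrCharacter G,
      charDegree (χ : G → ℂ) = 1 ∨ charDegree (χ : G → ℂ) = a ∨ charDegree (χ : G → ℂ) = b)
    (hea : ∃ χ : IrrCharacter G, charDegree (χ : G → ℂ) = a)
    (heb : ∃ χ : IrrCharacter G, charDegree (χ : G → ℂ) = b)
    (hmin : ∀ L : Subgroup G, L.Normal → L ≠ ⊥ → commutator G ≤ L) : False := by
  classical
  letI := Fintype.ofFinite G
  obtain ⟨χ₀, hχ₀⟩ := hea
  obtain ⟨φ₀, hφ₀⟩ := heb
  have hfaith : ∀ χ : IrrCharacter G, charDegree (χ : G → ℂ) ≠ 1 →
      ∀ g, (χ : G → ℂ) g = (χ : G → ℂ) 1 → g = 1 := by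
    intro χ hχ g hg
    by_contra hg1
    obtain ⟨L, hLn, hL⟩ := CharInd.exists_charKer (Char.isCharacter_of_irr χ.2)
    haveI := hLn
    have hle := hmin L hLn fun h => hg1 (Subgroup.mem_bot.1 (h ▸ (hL g).2 hg))
    obtain ⟨β, hβ, hval⟩ := Char.irr_exists_descend χ.2 L fun n hn => (hL n).1 hn
    refine hχ ?_
    have hc : ∀ x y : G ⧸ L, x * y = y * x := by
      intro x y
      obtain ⟨x, rfl⟩ := QuotientGroup.mk_surjective x
      obtain ⟨y, rfl⟩ := QuotientGroup.mk_surjective y
      rw [← QuotientGroup.mk_mul, ← QuotientGroup.mk_mul, QuotientGroup.eq]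
      exact hle (by
        rw [show (x * y)⁻¹ * (y * x) = y⁻¹ * x⁻¹ * (y⁻¹)⁻¹ * (x⁻¹)⁻¹ by group]
        exact Subgroup.commutator_mem_commutator (Subgroup.mem_top _) (Subgroup.mem_top _))
    rw [charDegree, hval, QuotientGroup.mk_one, ← charDegree]
    exact deg_eq_one_of_comm hc ⟨β, hβ⟩
  -- twists
  have htw : ∀ (χ : IrrCharacter G) (l : IrrCharacter G), charDegree (l : G → ℂ) = 1 →
      ∃ ξ : IrrCharacter G, (∀ x, (ξ : G → ℂ) x = (χ : G → ℂ) x * (l : G → ℂ) x) ∧
        charDegree (ξ : G → ℂ) = charDegree (χ : G → ℂ) := by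
    intro χ l hl
    obtain ⟨μ, hμ⟩ := Char.exists_monoidHom_of_degree_one (Char.isCharacter_of_irr l.2)
      (by rw [one_apply, hl, Nat.cast_one])
    have h := Char.isIrrCharacter_mul_monoidHom χ.2 μ
    have hval : ∀ x, (fun g => (χ : G → ℂ) g * (μ g : ℂ)) x =
        (χ : G → ℂ) x * (l : G → ℂ) x := fun x => by simp [hμ]
    refine ⟨⟨_, h⟩, fun x => ?_, ?_⟩
    · first
        | exact hval x
        | (simp [hμ, mul_comm])
    · simp [charDegree]
  have hsplit : ∀ Φ : G → ℂ, IsCharacter G Φ →
      (∀ l : IrrCharacter G, charDegree (l : G → ℂ) = 1 → classInner Φ (l : G → ℂ) = 0) →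
      ∃ x y : ℕ, Φ 1 = ((x * a + y * b : ℕ) : ℂ) ∧
        (y = 0 → ∀ ξ : IrrCharacter G, charDegree (ξ : G → ℂ) = b → classInner Φ (ξ : G → ℂ) = 0) ∧
        (x = 0 → ∀ ξ : IrrCharacter G, charDegree (ξ : G → ℂ) = a → classInner Φ (ξ : G → ℂ) = 0) := by
    intro Φ hΦ hlin
    obtain ⟨m, hm, hm'⟩ := Char.isCharacter_exists_coeff hΦ
    refine ⟨∑ ξ : IrrCharacter G, if charDegree (ξ : G → ℂ) = a then m ξ else 0,
      ∑ ξ : IrrCharacter G, if charDegree (ξ : G → ℂ) = b then m ξ else 0, ?_, ?_, ?_⟩
    · have h1 : Φ 1 = ((∑ ξ : IrrCharacter G, m ξ * charDegree (ξ : G → ℂ) : ℕ) : ℂ) := by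
        rw [hm]
        simp [one_apply]
      rw [h1, Finset.sum_mul, Finset.sum_mul, ← Finset.sum_add_distrib]
      congr 1
      refine Finset.sum_congr rfl fun ξ _ => ?_
      rcases hcd ξ with h | h | h
      · have h0 := hlin ξ h
        rw [hm', Nat.cast_eq_zero] at h0
        simp [h0]
      · rw [if_pos h, if_neg (by omega), h, zero_mul, add_zero]
      · rw [if_neg (by omega), if_pos h, h, zero_mul, zero_add]
    · intro h0 ξ hξ
      have := (Finset.sum_eq_zero_iff.1 h0) ξ (Finset.mem_univ _)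
      rw [if_pos hξ] at this
      rw [hm', this, Nat.cast_zero]
    · intro h0 ξ hξ
      have := (Finset.sum_eq_zero_iff.1 h0) ξ (Finset.mem_univ _)
      rw [if_pos hξ] at this
      rw [hm', this, Nat.cast_zero]
  -- products of two characters of degree `a` which are not twists
  have hP : ∀ χ χ' : IrrCharacter G, charDegree (χ : G → ℂ) = a → charDegree (χ' : G → ℂ) = a →
      (∀ l : IrrCharacter G, charDegree (l : G → ℂ) = 1 →
        ¬ ∀ x, (χ' : G → ℂ) x = (χ : G → ℂ) x * (l : G → ℂ) x) →
      ∀ φ : IrrCharacter G, charDegree (φ : G → ℂ) = b →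
        classInner (fun x => conj ((χ : G → ℂ) x) * (χ' : G → ℂ) x) (φ : G → ℂ) = 0 := by
    intro χ χ' hχ hχ' hnt φ hφ
    have hc : IsCharacter G (fun x => conj ((χ : G → ℂ) x) * (χ' : G → ℂ) x) :=
      Char.isCharacter_mul (Char.isCharacter_of_irr (Char.isIrrCharacter_conjFun χ.2))
        (Char.isCharacter_of_irr χ'.2)
    obtain ⟨x, y, h1, hy, -⟩ := hsplit _ hc fun l hl => by
      rw [classInner_mul_left]
      simp only [Complex.conj_conj]
      obtain ⟨ξ, hξ, -⟩ := htw χ l hl
      rw [← funext hξ]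
      exact Char.classInner_irr_ne χ'.2 ξ.2 fun h => hnt l hl fun x => by rw [h, hξ]
    refine hy ?_ φ hφ
    simp only [one_apply, hχ, hχ', map_natCast] at h1
    have h2 : a * a = x * a + y * b := by exact_mod_cast h1
    have h3 : a ∣ y * b := (Nat.dvd_add_right (dvd_mul_left a x)).1 (h2 ▸ dvd_mul_right a a)
    rcases Nat.eq_zero_or_pos y with h | h
    · exact h
    · have h4 : a ≤ y := Nat.le_of_dvd h (hab.dvd_of_dvd_mul_right h3)
      nlinarith
  -- a degree `a` times a degree `b` has no constituent of degree `a`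
  have hQ : ∀ χ φ : IrrCharacter G, charDegree (χ : G → ℂ) = a → charDegree (φ : G → ℂ) = b →
      ∀ ξ : IrrCharacter G, charDegree (ξ : G → ℂ) = a →
        classInner (fun x => (χ : G → ℂ) x * (φ : G → ℂ) x) (ξ : G → ℂ) = 0 := by
    intro χ φ hχ hφ ξ hξ
    set Φ := fun x => (χ : G → ℂ) x * (φ : G → ℂ) x with hΦ
    have hc : IsCharacter G Φ :=
      Char.isCharacter_mul (Char.isCharacter_of_irr χ.2) (Char.isCharacter_of_irr φ.2)
    obtain ⟨x, y, h1, hy, hx⟩ := hsplit Φ hc fun l hl => by
      rw [hΦ, classInner_mul_left]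
      obtain ⟨χc, hχc, hdc⟩ := htw ⟨_, Char.isIrrCharacter_conjFun χ.2⟩ l hl
      rw [← funext hχc]
      refine Char.classInner_irr_ne φ.2 χc.2 fun h => ?_
      rw [← Subtype.ext h, hφ] at hdc
      have hcd' : charDegree (fun g => conj ((χ : G → ℂ) g)) = a := by
        rw [← hχ, charDegree, charDegree, Complex.conj_re]
      simp only [hcd'] at hdc
      omega
    by_contra hne
    have hx0 : x ≠ 0 := fun h => hne (hx h ξ hξ)
    rw [show Φ 1 = ((a * b : ℕ) : ℂ) by simp [hΦ, one_apply, hχ, hφ]] at h1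
    have h2 : a * b = x * a + y * b := by exact_mod_cast h1
    have hbx : b ≤ x := by
      refine Nat.le_of_dvd (Nat.pos_of_ne_zero hx0) (hab.symm.dvd_of_dvd_mul_right ?_)
      exact (Nat.dvd_add_left (dvd_mul_left b y)).1 (h2 ▸ dvd_mul_left b a)
    have hy0 : y = 0 := by
      rcases Nat.eq_zero_or_pos y with h | h
      · exact h
      · nlinarith
    -- all constituents are twists of `χ`
    obtain ⟨m, hm, hm'⟩ := Char.isCharacter_exists_coeff hc
    have hterm : ∀ (η : IrrCharacter G) (h : G), h ∈ commutator G → m η ≠ 0 →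
        (η : G → ℂ) h * (χ : G → ℂ) 1 = (χ : G → ℂ) h * (η : G → ℂ) 1 := by
      intro η h hh hη
      have hne0 : classInner Φ (η : G → ℂ) ≠ 0 := by rw [hm']; exact_mod_cast hη
      rcases hcd η with h' | h' | h'
      · exfalso
        apply hne0
        rw [hΦ, classInner_mul_left]
        obtain ⟨χc, hχc, hdc⟩ := htw ⟨_, Char.isIrrCharacter_conjFun χ.2⟩ η h'
        rw [← funext hχc]
        refine Char.classInner_irr_ne φ.2 χc.2 fun h => ?_
        rw [← Subtype.ext h, hφ] at hdc
        have hcd' : charDegree (fun g => conj ((χ : G → ℂ) g)) = a := by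
          rw [← hχ, charDegree, charDegree, Complex.conj_re]
        simp only [hcd'] at hdc
        omega
      · by_cases htwist : ∃ l : IrrCharacter G, charDegree (l : G → ℂ) = 1 ∧
            ∀ x, (η : G → ℂ) x = (χ : G → ℂ) x * (l : G → ℂ) x
        · obtain ⟨l, hl, hηl⟩ := htwist
          rw [hηl h, hηl 1, linear_apply_of_mem_commutator l hl hh]
          ring
        · push Not at htwist
          exfalso
          apply hne0
          rw [hΦ, classInner_mul_left, ← Char.classInner_conj]
          rw [hP χ η hχ h' (fun l hl hall => (htwist l hl).elim fun x hx => hx (hall x)) φ hφ,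
            map_zero]
      · exact absurd (hy hy0 η h') hne0
    have hval : ∀ h ∈ commutator G, (χ : G → ℂ) h = 0 ∨ h = 1 := by
      intro h hh
      have e1 : Φ h * (χ : G → ℂ) 1 = (χ : G → ℂ) h * Φ 1 := by
        rw [hm]
        simp only [Finset.sum_apply, Pi.smul_apply, Finset.sum_mul, Finset.mul_sum, nsmul_eq_mul,
          Pi.mul_apply, Pi.natCast_apply]
        refine Finset.sum_congr rfl fun η _ => ?_
        rcases Nat.eq_zero_or_pos (m η) with h0 | h0
        · simp [h0]
        · rw [mul_assoc, hterm η h hh h0.ne']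
          ring
      by_cases hz : (χ : G → ℂ) h = 0
      · exact Or.inl hz
      refine Or.inr (hfaith φ (by omega) h ?_)
      simp only [hΦ] at e1
      have e2 : (χ : G → ℂ) h * ((χ : G → ℂ) 1 * ((φ : G → ℂ) h - (φ : G → ℂ) 1)) = 0 := by
        linear_combination e1
      simp only [mul_eq_zero, hz, Char.irr_one_ne_zero χ.2, false_or, sub_eq_zero] at e2
      exact e2
    set K := commutator G with hK
    letI := Fintype.ofFinite K
    have hcon : classInner (fun k : K => (χ : G → ℂ) k) (fun _ : K => (1 : ℂ)) ≠ 0 := by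
      rw [classInner, Finset.sum_eq_single (1 : K)]
      · simp [Char.irr_one_ne_zero χ.2]
      · intro k _ hk
        rcases hval k k.2 with h | h
        · simp [h]
        · exact absurd (Subtype.ext h) hk
      · simp
    have hcl := CharInd.clifford K χ.2 (Char.isIrrCharacter_const_one (G := K)) hcon
    have hbot : K = ⊥ := (Subgroup.eq_bot_iff_forall _).2 fun k hk => by
      refine hfaith χ (by omega) k ?_
      have h1 := congrFun hcl ⟨k, hk⟩
      have h2 := congrFun hcl 1
      simp only [Pi.smul_apply, Finset.sum_apply, OneMemClass.coe_one] at h1 h2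
      rw [h1, h2]
      congr 1
      refine Finset.sum_congr rfl fun ψ hψ => ?_
      obtain ⟨g, rfl⟩ := (CharInd.mem_conjClass K).1 hψ
      simp [CharInd.conjChar_apply]
    refine absurd (deg_eq_one_of_comm (fun x y => ?_) χ₀) (by omega)
    have hz := (commutator_eq_bot_iff_center_eq_top _).1 hbot
    exact Subgroup.mem_center_iff.1 (hz ▸ Subgroup.mem_top y) x
  -- powers of a faithful character of degree `a`
  have hpow : ∀ (i : ℕ) (φ : IrrCharacter G), charDegree (φ : G → ℂ) = b →
      classInner (fun g => (χ₀ : G → ℂ) g ^ i) (φ : G → ℂ) = 0 := by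
    intro i
    induction i with
    | zero =>
      intro φ hφ
      simp only [pow_zero]
      refine Char.classInner_irr_ne Char.isIrrCharacter_const_one φ.2 fun h => ?_
      have h1 := one_apply φ
      rw [hφ, ← h] at h1
      have h2 : (b : ℂ) = ((1 : ℕ) : ℂ) := by rw [Nat.cast_one]; exact h1.symm
      have : b = 1 := by exact_mod_cast h2
      omega
    | succ i ih =>
      intro φ hφ
      have hci : IsCharacter G (fun g => (χ₀ : G → ℂ) g ^ i) := by
        clear ih
        induction i with
        | zero => simpa using Char.isCharacter_const_one (G := G)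
        | succ i ih => simpa [pow_succ, Pi.mul_def] using Char.isCharacter_mul ih (Char.isCharacter_of_irr χ₀.2)
      obtain ⟨m, hm, hm'⟩ := Char.isCharacter_exists_coeff hci
      have e : (fun g => (χ₀ : G → ℂ) g ^ (i + 1)) =
          ∑ ξ : IrrCharacter G, (m ξ : ℂ) • fun g => (χ₀ : G → ℂ) g * (ξ : G → ℂ) g := by
        funext g
        have h1 := congrFun hm g
        simp only [Finset.sum_apply, Pi.smul_apply, nsmul_eq_mul, smul_eq_mul, Pi.mul_apply,
          Pi.natCast_apply] at h1 ⊢
        rw [pow_succ, h1, Finset.sum_mul]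
        exact Finset.sum_congr rfl fun ξ _ => by ring
      rw [e, Char.classInner_sum_left]
      refine Finset.sum_eq_zero fun ξ _ => ?_
      rw [Char.classInner_smul_left]
      rcases hcd ξ with h | h | h
      · refine mul_eq_zero_of_right _ ?_
        obtain ⟨η, hη, hdη⟩ := htw χ₀ ξ h
        rw [← funext hη]
        refine Char.classInner_irr_ne η.2 φ.2 fun he => ?_
        rw [Subtype.ext he, hφ, hχ₀] at hdη
        omega
      · refine mul_eq_zero_of_right _ ?_
        rw [classInner_mul_left, ← Char.classInner_conj]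
        have hcd' : charDegree (fun g => conj ((χ₀ : G → ℂ) g)) = a := by
          rw [← hχ₀, charDegree, charDegree, Complex.conj_re]
        rw [hQ ⟨_, Char.isIrrCharacter_conjFun χ₀.2⟩ φ hcd' hφ ξ h, map_zero]
      · refine mul_eq_zero_of_left ?_ _
        have := ih ξ h
        rw [hm'] at this
        exact this
  obtain ⟨d, ρ, hρ, hρχ⟩ := χ₀.2
  have hinj : Function.Injective ρ := by
    refine (injective_iff_map_eq_one (ρ : G →* Module.End ℂ (Fin d → ℂ))).2 fun g hg => ?_
    refine hfaith χ₀ (by omega) g ?_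
    rw [← hρχ, Representation.character, Representation.character, hg, map_one ρ]
  obtain ⟨i, -, hi⟩ := S0168.result ρ hinj (φ₀ : G → ℂ) φ₀.2
  rw [hρχ] at hi
  exact hi (hpow i φ₀ hφ₀)

/-- The main theorem. -/
theorem derived_three_eq_bot : ∀ (n : ℕ) (G : Type u) [Group G] [Finite G], Nat.card G ≤ n →
    ∀ a b : ℕ, (∀ χ : IrrCharacter G,
      charDegree (χ : G → ℂ) = 1 ∨ charDegree (χ : G → ℂ) = a ∨ charDegree (χ : G → ℂ) = b) →
    derivedSeries G 3 = ⊥ := by
  intro n
  induction n using Nat.strong_induction_on with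
  | _ n ih =>
    intro G _ _ hn a b hcd
    classical
    have two : ∀ m : ℕ, (∀ χ : IrrCharacter G,
        charDegree (χ : G → ℂ) = 1 ∨ charDegree (χ : G → ℂ) = m) → derivedSeries G 3 = ⊥ := by
      intro m hm
      rw [← le_bot_iff]
      refine (derivedSeries_antitone G (by norm_num : 2 ≤ 3)).trans ?_
      by_cases hm1 : m = 1
      · rw [derived_two_eq_bot (m := 2) (by norm_num) fun χ => Or.inl ((hm χ).elim id (hm1 ▸ ·))]
      · rw [derived_two_eq_bot hm1 hm]
    by_cases hea : ∃ χ : IrrCharacter G, charDegree (χ : G → ℂ) = a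
    swap
    · push Not at hea
      exact two b fun χ => (hcd χ).imp id fun h => h.resolve_left (hea χ)
    by_cases heb : ∃ χ : IrrCharacter G, charDegree (χ : G → ℂ) = b
    swap
    · push Not at heb
      exact two a fun χ => (hcd χ).imp id fun h => h.resolve_right (heb χ)
    by_cases ha1 : a = 1
    · exact two b fun χ => by rcases hcd χ with h | h | h <;> simp [h, ha1]
    by_cases hb1 : b = 1
    · exact two a fun χ => by rcases hcd χ with h | h | h <;> simp [h, hb1]
    by_cases hne : a = b
    · exact two a fun χ => by rcases hcd χ with h | h | h <;> simp [h, hne]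
    have ha : 1 < a := by
      obtain ⟨χ, hχ⟩ := hea
      have := deg_pos χ
      omega
    have hb : 1 < b := by
      obtain ⟨χ, hχ⟩ := heb
      have := deg_pos χ
      omega
    by_cases hab : Nat.Coprime a b
    · -- coprime degrees
      have hq : ∀ L : Subgroup G, L.Normal → L ≠ ⊥ → ¬ commutator G ≤ L →
          derivedSeries G 3 = ⊥ := by
        intro L hL hL1 hL2
        haveI := hL
        have hlt : Nat.card (G ⧸ L) < n := by
          refine lt_of_lt_of_le ?_ hn
          rw [Subgroup.card_eq_card_quotient_mul_card_subgroup L]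
          exact lt_mul_of_one_lt_right Nat.card_pos ((Subgroup.one_lt_card_iff_ne_bot L).2 hL1)
        haveI : Group.IsSolvable (G ⧸ L) :=
          ⟨⟨3, ih _ hlt (G ⧸ L) le_rfl a b fun β => by
            rw [← CharGraph.charDegree_inflate L β]; exact hcd _⟩⟩
        exact derived_three_of_solvable_quotient ha hb hab hcd hea heb L hL2
      by_cases hall : ∀ L : Subgroup G, L.Normal → L ≠ ⊥ → commutator G ≤ L
      · exfalso
        rcases Nat.lt_or_gt_of_ne hne with h | h
        · exact not_coprime_of_all_quotients_abelian ha h hab hcd hea heb hall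
        · exact not_coprime_of_all_quotients_abelian hb h hab.symm
            (fun χ => by rcases hcd χ with h | h | h <;> simp [h]) heb hea hall
      · push Not at hall
        obtain ⟨L, h1, h2, h3⟩ := hall
        exact hq L h1 h2 h3
    -- a common prime
    obtain ⟨p, hp, hpa, hpb⟩ := Nat.Prime.not_coprime_iff_dvd.1 hab
    haveI : Fact p.Prime := ⟨hp⟩
    set N := pResidual p G
    have hpN : ¬ p ∣ Nat.card N := Char.not_dvd_card_pResidual_of_degrees fun χ hχ => by
      rcases hcd χ with h | h | h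
      · exact absurd h hχ
      · rwa [h]
      · rwa [h]
    obtain ⟨k, hk⟩ := Transfer.exists_index_pResidual_eq_pow (p := p) (G := G)
    have hlt : Nat.card N < n := by
      refine lt_of_lt_of_le (lt_of_le_of_ne (Subgroup.card_le_card_group N) fun h => ?_) hn
      refine hpN (h ▸ ?_)
      obtain ⟨χ, hχ⟩ := hea
      exact hpa.trans (hχ ▸ BlkChar.irr_charDegree_dvd_card χ)
    set a' := ordCompl[p] a with ha'
    set b' := ordCompl[p] b with hb'
    have hcdN : ∀ θ : IrrCharacter N, charDegree (θ : N → ℂ) = 1 ∨ charDegree (θ : N → ℂ) = a' ∨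
        charDegree (θ : N → ℂ) = b' := by
      intro θ
      obtain ⟨χ, hd, hr⟩ := exists_deg_dvd_index N θ
      have hθ : ¬ p ∣ charDegree (θ : N → ℂ) := fun h =>
        hpN (h.trans (BlkChar.irr_charDegree_dvd_card θ))
      rw [hk] at hr
      obtain ⟨j, -, hj⟩ := (Nat.dvd_prime_pow hp).1 hr
      have he : charDegree (θ : N → ℂ) = ordCompl[p] (charDegree (χ : G → ℂ)) := by
        conv_rhs => rw [← Nat.div_mul_cancel hd, hj, Nat.ordCompl_mul]
        rw [Nat.factorization_eq_zero_of_not_dvd hθ, pow_zero, Nat.div_one, hp.factorization_pow,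
          Finsupp.single_eq_same, Nat.div_self (pow_pos hp.pos j), one_mul]
      rcases hcd χ with h | h | h
      · left; rw [he, h]; simp
      · right; left; rw [he, h]
      · right; right; rw [he, h]
    have ihN := ih _ hlt N le_rfl a' b' hcdN
    by_cases hab' : a' = 1 ∧ b' = 1
    · -- monomial
      have hNc : ∀ x ∈ N, ∀ y ∈ N, x * y = y * x := fun x hx y hy =>
        congrArg Subtype.val (comm_of_forall_linear (G := N)
          (fun θ => by rcases hcdN θ with h | h | h <;> simp [h, hab'.1, hab'.2]) ⟨x, hx⟩ ⟨y, hy⟩)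
      letI := Fintype.ofFinite G
      have hM : ∀ χ : G → ℂ, IsIrrCharacter G χ →
          ∃ (H : Subgroup G) (lam : H →* ℂˣ), χ = indFun H (fun h => (lam h : ℂ)) :=
        monomial_of_abelian_pQuotient (Nat.card G) G rfl N inferInstance hNc
          fun g => Transfer.exists_pow_mem_pResidual g
      have hind : ∀ (χ : IrrCharacter G), ∃ (H : Subgroup G) (lam : H →* ℂˣ),
          H.index = charDegree (χ : G → ℂ) ∧ (χ : G → ℂ) = indFun H (fun h => (lam h : ℂ)) := by
        intro χ
        obtain ⟨H, lam, hH⟩ := hM χ χ.2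
        refine ⟨H, lam, ?_, hH⟩
        have h1 := congrFun hH 1
        rw [one_apply, CharInd.indFun_one_apply, map_one, Units.val_one, mul_one] at h1
        exact_mod_cast h1.symm
      have hlinK : ∀ (j : ℕ) (ξ : IrrCharacter G), charDegree (ξ : G → ℂ) = 1 →
          ∀ y ∈ derivedSeries G (j + 1), (ξ : G → ℂ) y = (ξ : G → ℂ) 1 := fun j ξ hξ y hy =>
        linear_apply_of_mem_commutator ξ hξ
          (derivedSeries_one G ▸ derivedSeries_antitone G (by omega : 1 ≤ j + 1) hy)
      have key : ∀ c c' : ℕ, c < c' → (∀ χ : IrrCharacter G, charDegree (χ : G → ℂ) = 1 ∨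
          charDegree (χ : G → ℂ) = c ∨ charDegree (χ : G → ℂ) = c') →
          derivedSeries G 3 = ⊥ := by
        intro c c' hcc hcd'
        have h2 : ∀ χ : IrrCharacter G, charDegree (χ : G → ℂ) = c →
            ∀ y ∈ derivedSeries G 2, (χ : G → ℂ) y = (χ : G → ℂ) 1 := by
          intro χ hχ y hy
          obtain ⟨H, lam, hi, hH⟩ := hind χ
          rw [hH]
          rw [derivedSeries_succ] at hy
          refine monomial_kills _ H lam (fun ξ hξ z hz => ?_) y hy
          rcases hcd' ξ with h | h | h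
          · exact hlinK 0 ξ h z hz
          all_goals omega
        refine (Subgroup.eq_bot_iff_forall _).2 fun g hg => eq_one_of_forall_irr fun χ => ?_
        rcases hcd' χ with h | h | h
        · exact hlinK 2 χ h g hg
        · exact h2 χ h g (derivedSeries_antitone G (by norm_num : 2 ≤ 3) hg)
        · obtain ⟨H, lam, hi, hH⟩ := hind χ
          rw [hH]
          rw [derivedSeries_succ] at hg
          refine monomial_kills _ H lam (fun ξ hξ z hz => ?_) g hg
          rcases hcd' ξ with h' | h' | h'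
          · exact hlinK 1 ξ h' z hz
          · exact h2 ξ h' z hz
          · omega
      rcases Nat.lt_or_gt_of_ne hne with h | h
      · exact key a b h hcd
      · exact key b a h fun χ => by rcases hcd χ with h | h | h <;> simp [h]
    -- the commutator subgroup of `N` as a subgroup of `G`
    set M := (commutator N).map N.subtype with hM
    haveI : M.Normal := ConjAct.normal_of_characteristic_of_normal
    have hMN : M ≤ N := Subgroup.map_subtype_le _
    have hNM : ∀ x ∈ N.map (QuotientGroup.mk' M), ∀ y ∈ N.map (QuotientGroup.mk' M),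
        x * y = y * x := by
      rintro _ ⟨x, hx, rfl⟩ _ ⟨y, hy, rfl⟩
      rw [← map_mul, ← map_mul, QuotientGroup.mk'_apply, QuotientGroup.mk'_apply, QuotientGroup.eq]
      refine ⟨⟨y, hy⟩⁻¹ * ⟨x, hx⟩⁻¹ * (⟨y, hy⟩⁻¹)⁻¹ * (⟨x, hx⟩⁻¹)⁻¹,
        Subgroup.commutator_mem_commutator (Subgroup.mem_top _) (Subgroup.mem_top _), ?_⟩
      simp [mul_assoc]
    have hQdeg : ∀ β : IrrCharacter (G ⧸ M), ∃ j, charDegree (β : G ⧸ M → ℂ) = p ^ j := by
      intro β
      haveI : (N.map (QuotientGroup.mk' M)).Normal :=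
        Subgroup.Normal.map inferInstance _ (QuotientGroup.mk'_surjective M)
      have h1 := charDegree_dvd_index (N.map (QuotientGroup.mk' M)) hNM β
      rw [Subgroup.index_map, QuotientGroup.ker_mk', sup_of_le_left hMN,
        MonoidHom.range_eq_top.2 (QuotientGroup.mk'_surjective M), Subgroup.index_top, mul_one,
        hk] at h1
      obtain ⟨j, -, hj⟩ := (Nat.dvd_prime_pow hp).1 h1
      exact ⟨j, hj⟩
    have hpow' : ∀ c j : ℕ, c = p ^ j → ordCompl[p] c = 1 := fun c j hc => by
      rw [hc, hp.factorization_pow, Finsupp.single_eq_same, Nat.div_self (pow_pos hp.pos j)]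
    have hdeg2 : ∀ β : IrrCharacter (G ⧸ M), charDegree (β : G ⧸ M → ℂ) = 1 ∨
        (a' = 1 ∧ charDegree (β : G ⧸ M → ℂ) = a) ∨ (b' = 1 ∧ charDegree (β : G ⧸ M → ℂ) = b) := by
      intro β
      obtain ⟨j, hj⟩ := hQdeg β
      rcases hcd (CharGraph.inflate M β) with h | h | h <;> rw [CharGraph.charDegree_inflate] at h
      · exact Or.inl h
      · exact Or.inr (Or.inl ⟨hpow' a j (h ▸ hj), h⟩)
      · exact Or.inr (Or.inr ⟨hpow' b j (h ▸ hj), h⟩)
    have one_side : ∀ c c' : ℕ, c ≠ 1 →
        (∀ β : IrrCharacter (G ⧸ M),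
          charDegree (β : G ⧸ M → ℂ) = 1 ∨ charDegree (β : G ⧸ M → ℂ) = c) →
        (∀ θ : IrrCharacter N, charDegree (θ : N → ℂ) = 1 ∨ charDegree (θ : N → ℂ) = c') →
        c' ≠ 1 → derivedSeries G 3 = ⊥ := by
      intro c c' hc hQ hN hc'
      have h1 := derived_two_eq_bot hc hQ
      have h2 : derivedSeries G 2 ≤ M := by
        have h3 : (derivedSeries G 2).map (QuotientGroup.mk' M) ≤ derivedSeries (G ⧸ M) 2 :=
          map_derivedSeries_le_derivedSeries _ 2
        rw [h1, le_bot_iff, Subgroup.map_eq_bot_iff, QuotientGroup.ker_mk'] at h3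
        exact h3
      have h4 := derived_two_eq_bot hc' hN
      rw [← le_bot_iff, derivedSeries_succ]
      refine (Subgroup.commutator_mono h2 h2).trans ?_
      rw [hM, ← Subgroup.map_commutator]
      rw [derivedSeries_succ, derivedSeries_one] at h4
      rw [h4, Subgroup.map_bot]
    by_cases ha1' : a' = 1
    · have hb1' : b' ≠ 1 := fun h => hab' ⟨ha1', h⟩
      exact one_side a b' ha1
        (fun β => by rcases hdeg2 β with h | ⟨-, h⟩ | ⟨h', -⟩
                     · exact Or.inl h
                     · exact Or.inr h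
                     · exact absurd h' hb1')
        (fun θ => by rcases hcdN θ with h | h | h <;> simp [h, ha1']) hb1'
    by_cases hb1' : b' = 1
    · exact one_side b a' hb1
        (fun β => by rcases hdeg2 β with h | ⟨h', -⟩ | ⟨-, h⟩
                     · exact Or.inl h
                     · exact absurd h' ha1'
                     · exact Or.inr h)
        (fun θ => by rcases hcdN θ with h | h | h <;> simp [h, hb1']) ha1'
    have hcM : commutator G ≤ M := by
      have hc : ∀ x y : G ⧸ M, x * y = y * x := comm_of_forall_linear fun β => by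
        rcases hdeg2 β with h | ⟨h', -⟩ | ⟨h', -⟩
        · exact h
        · exact absurd h' ha1'
        · exact absurd h' hb1'
      rw [commutator_def, Subgroup.commutator_le]
      intro x _ y _
      rw [← QuotientGroup.eq_one_iff, commutatorElement_def, QuotientGroup.mk_mul,
        QuotientGroup.mk_mul, QuotientGroup.mk_mul, QuotientGroup.mk_inv, QuotientGroup.mk_inv,
        mul_inv_eq_one, mul_inv_eq_iff_eq_mul]
      exact hc _ _
    have hup : ∀ j, derivedSeries G (j + 1) ≤ (derivedSeries N (j + 1)).map N.subtype := by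
      intro j
      induction j with
      | zero => rw [derivedSeries_one, derivedSeries_one]; exact hcM
      | succ j ihj =>
        rw [derivedSeries_succ G (j + 1), derivedSeries_succ N (j + 1), Subgroup.map_commutator]
        exact Subgroup.commutator_mono ihj ihj
    rw [← le_bot_iff]
    exact (hup 2).trans (by rw [ihN, Subgroup.map_bot])

end Cfsg.Agent.CharDeg
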