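import Cfsg.Agent.CharDeg.IndexBoundFitting
import Cfsg.Agent.CharDeg.ThreeDegrees
import Cfsg.Agent.CharDeg.PrimeDegrees

/-!
A finite group whose degrees are at most `b` has an abelian subgroup of index at most `(b!) ^ 2`.
-/

set_option autoImplicit false
set_option linter.style.haveILetI false

noncomputable section

namespace Cfsg.Agent.CharDeg

open Cfsg
open scoped commutatorElement Nat

universe u

/-- There is an abelian subgroup of index at most `N`. -/
def HasAbelianOfIndexLE (G : Type u) [Group G] (N : ℕ) : Prop :=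
  ∃ A : Subgroup G, (∀ x ∈ A, ∀ y ∈ A, x * y = y * x) ∧ A.index ≤ N

variable {G : Type u} [Group G] [Finite G]

omit [Finite G] in
theorem HasAbelianOfIndexLE.mono {N M : ℕ} (h : HasAbelianOfIndexLE G N) (hNM : N ≤ M) :
    HasAbelianOfIndexLE G M := by
  obtain ⟨A, hA, hi⟩ := h
  exact ⟨A, hA, hi.trans hNM⟩

omit [Finite G] in
theorem HasAbelianOfIndexLE.of_subgroup (H : Subgroup G) {N M : ℕ} (h : HasAbelianOfIndexLE H N)
    (hH : H.index ≤ M) : HasAbelianOfIndexLE G (N * M) := by
  obtain ⟨A, hA, hi⟩ := h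
  refine ⟨A.map H.subtype, ?_, ?_⟩
  · rintro _ ⟨x, hx, rfl⟩ _ ⟨y, hy, rfl⟩
    rw [← map_mul, ← map_mul, hA x hx y hy]
  · rw [Subgroup.index_map_subtype]
    exact Nat.mul_le_mul hi hH

omit [Finite G] in
theorem hasAbelian_of_comm (h : ∀ a b : G, a * b = b * a) : HasAbelianOfIndexLE G 1 :=
  ⟨⊤, fun a _ b _ => h a b, Subgroup.index_top.le⟩

/-- Degrees `1` and a prime `p`: an abelian subgroup of index at most `p ^ 2`. -/
theorem hasAbelian_prime {p : ℕ} (hp : p.Prime)
    (hcd : ∀ χ : IrrCharacter G, charDegree (χ : G → ℂ) = 1 ∨ charDegree (χ : G → ℂ) = p) :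
    HasAbelianOfIndexLE G (p ^ 2) := by
  classical
  haveI : Fact p.Prime := ⟨hp⟩
  have hp1 : p ≤ p ^ 2 := Nat.le_self_pow two_ne_zero p
  by_cases hG : ∀ a b : G, a * b = b * a
  · exact (hasAbelian_of_comm hG).mono (hp.one_le.trans hp1)
  by_cases hA : ∃ A : Subgroup G, A.Normal ∧ (∀ a ∈ A, ∀ b ∈ A, a * b = b * a) ∧ A.index = p
  · obtain ⟨A, -, hAc, hAi⟩ := hA
    exact ⟨A, hAc, hAi.le.trans hp1⟩
  push Not at hG
  have hm : ∃ χ : IrrCharacter G, charDegree (χ : G → ℂ) = p := by
    by_contra hc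
    push Not at hc
    obtain ⟨a, c, hac⟩ := hG
    exact hac (comm_of_forall_linear (fun χ => (hcd χ).resolve_right (hc χ)) a c)
  rcases two_degrees_structure hcd hm hp.ne_one with h | ⟨q, e, hq, hqe, P, A, hPn, hAn, hPp, hAc, hd, hs⟩
  · exact absurd h hA
  have hqp : p = q := (Nat.prime_dvd_prime_iff_eq hp hq).1 (hp.dvd_of_dvd_pow (n := e) (dvd_of_eq hqe))
  subst hqp
  have hZ := center_index_eq_cube (isPGroup_quotient_center_of_prod P A hPn hAn hPp hAc hd hs) hcd
    hG hA
  obtain ⟨x, hx⟩ : ∃ x, x ∉ Subgroup.center G := by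
    obtain ⟨a, c, hac⟩ := hG
    exact ⟨c, fun h => hac (Subgroup.mem_center_iff.1 h a)⟩
  set B := Subgroup.closure (insert x (Subgroup.center G : Set G)) with hB
  refine ⟨B, closure_insert_comm (fun a _ c hc => Subgroup.mem_center_iff.1 hc a)
    (fun a ha => (Subgroup.mem_center_iff.1 ha x).symm), ?_⟩
  have hlt : Subgroup.center G < B := lt_of_le_of_ne
    ((Set.subset_insert _ _).trans Subgroup.subset_closure) fun h => hx (by
      rw [h]; exact Subgroup.subset_closure (Set.mem_insert _ _))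
  have h1 : B.index < p ^ 3 := hZ ▸ Subgroup.index_strictAnti hlt
  obtain ⟨j, -, hj⟩ := (Nat.dvd_prime_pow hp).1 (hZ ▸ Subgroup.index_dvd_of_le hlt.le)
  rw [hj] at h1 ⊢
  exact Nat.pow_le_pow_right hp.pos (by have := (Nat.pow_lt_pow_iff_right hp.one_lt).1 h1; omega)

/-- Degrees at most `3`. -/
theorem hasAbelian_three (hmax : ∀ χ : IrrCharacter G, charDegree (χ : G → ℂ) ≤ 3) :
    HasAbelianOfIndexLE G 18 := by
  classical
  by_cases h3 : ∃ χ : IrrCharacter G, charDegree (χ : G → ℂ) = 3
  swap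
  · push Not at h3
    refine (hasAbelian_prime Nat.prime_two fun χ => ?_).mono (by norm_num)
    have := hmax χ
    have := deg_pos χ
    have := h3 χ
    omega
  by_cases h2 : ∃ χ : IrrCharacter G, charDegree (χ : G → ℂ) = 2
  swap
  · push Not at h2
    refine (hasAbelian_prime Nat.prime_three fun χ => ?_).mono (by norm_num)
    have := hmax χ
    have := deg_pos χ
    have := h2 χ
    omega
  have hcd : ∀ χ : IrrCharacter G,
      charDegree (χ : G → ℂ) = 1 ∨ charDegree (χ : G → ℂ) = 2 ∨ charDegree (χ : G → ℂ) = 3 := by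
    intro χ
    have := hmax χ
    have := deg_pos χ
    omega
  haveI : Group.IsSolvable G := (Group.isSolvable_def G).2 ⟨3, derived_three_eq_bot _ G le_rfl 2 3 hcd⟩
  haveI : Group.IsSolvable (G ⧸ (⊥ : Subgroup G)) :=
    Group.isSolvable_of_surjective (f := QuotientGroup.mk' (⊥ : Subgroup G)) (QuotientGroup.mk'_surjective _)
  have hna : ¬ commutator G ≤ ⊥ := by
    intro h
    obtain ⟨χ, hχ⟩ := h2
    have hz := (commutator_eq_bot_iff_center_eq_top _).1 (le_bot_iff.1 h)
    rw [deg_eq_one_of_comm (fun a c => Subgroup.mem_center_iff.1 (hz ▸ Subgroup.mem_top c) a) χ] at hχ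
    exact absurd hχ (by norm_num)
  obtain ⟨K, g, -, -, hor, hK⟩ := exists_index_two_degrees (by norm_num : 1 < 2) (by norm_num : 1 < 3)
    (by norm_num : Nat.Coprime 2 3) hcd h2 h3 ⊥ hna
  rcases hor with ⟨hi, rfl⟩ | ⟨hi, rfl⟩
  · exact HasAbelianOfIndexLE.of_subgroup K (hasAbelian_prime Nat.prime_three hK) hi.le
  · exact (HasAbelianOfIndexLE.of_subgroup K (hasAbelian_prime Nat.prime_two hK) hi.le).mono
      (by norm_num)

theorem arith_five {b : ℕ} (hb : 5 ≤ b) :
    b ^ 2 * (b ^ 2 + 1) * ((b / 2)! ^ 2) ≤ b ! ^ 2 ∧ b ^ 3 * ((b / 2)! ^ 2) ≤ b ! ^ 2 := by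
  obtain ⟨k, rfl⟩ : ∃ k, b = k + 5 := ⟨b - 5, by omega⟩
  have hm : ((k + 5) / 2)! ≤ (k + 2)! := Nat.factorial_le (by omega)
  have hfac : (k + 5)! = (k + 5) * ((k + 4) * ((k + 3) * (k + 2)!)) := by
    rw [show k + 5 = k + 4 + 1 from rfl, Nat.factorial_succ, show k + 4 = k + 3 + 1 from rfl,
      Nat.factorial_succ, show k + 3 = k + 2 + 1 from rfl, Nat.factorial_succ]
  have h0 : k + 6 ≤ (k + 4) * (k + 3) := by nlinarith
  have h1 : (k + 5) ^ 2 + 1 ≤ ((k + 4) * (k + 3)) ^ 2 :=
    (by nlinarith : (k + 5) ^ 2 + 1 ≤ (k + 6) ^ 2).trans (Nat.pow_le_pow_left h0 2)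
  have h2 : k + 5 ≤ ((k + 4) * (k + 3)) ^ 2 :=
    (by omega : k + 5 ≤ k + 6).trans (h0.trans (Nat.le_self_pow two_ne_zero _))
  have h3 := Nat.pow_le_pow_left hm 2
  rw [hfac]
  constructor
  · calc (k + 5) ^ 2 * ((k + 5) ^ 2 + 1) * ((k + 5) / 2)! ^ 2
        ≤ (k + 5) ^ 2 * ((k + 4) * (k + 3)) ^ 2 * (k + 2)! ^ 2 :=
          Nat.mul_le_mul (Nat.mul_le_mul_left _ h1) h3
      _ = _ := by ring
  · calc (k + 5) ^ 3 * ((k + 5) / 2)! ^ 2 = (k + 5) ^ 2 * (k + 5) * ((k + 5) / 2)! ^ 2 := by ring
      _ ≤ (k + 5) ^ 2 * ((k + 4) * (k + 3)) ^ 2 * (k + 2)! ^ 2 :=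
          Nat.mul_le_mul (Nat.mul_le_mul_left _ h2) h3
      _ = _ := by ring

/-- The main bound. -/
theorem hasAbelian_factorial : ∀ (b : ℕ) (G : Type u) [Group G] [Finite G],
    (∀ χ : IrrCharacter G, charDegree (χ : G → ℂ) ≤ b) → HasAbelianOfIndexLE G (b ! ^ 2) := by
  intro b
  induction b using Nat.strong_induction_on with
  | _ b ih =>
    intro G _ _ hmax
    classical
    have hfpos : 1 ≤ b ! ^ 2 := Nat.one_le_pow _ _ b.factorial_pos
    by_cases hb1 : b ≤ 1
    · refine (hasAbelian_of_comm (comm_of_forall_linear fun χ => ?_)).mono hfpos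
      have := hmax χ
      have := deg_pos χ
      omega
    by_cases hb2 : b = 2
    · subst hb2
      refine (hasAbelian_prime Nat.prime_two fun χ => ?_).mono (by decide)
      have := hmax χ
      have := deg_pos χ
      omega
    by_cases hb3 : b = 3
    · subst hb3
      exact (hasAbelian_three hmax).mono (by decide)
    have hb4 : 4 ≤ b := by omega
    set T := if b = 4 then 32 else b ^ 2 with hT
    by_cases hcase : ∃ x g : G, (Subgroup.centralizer ({x} : Set G)).index ≤ T ∧
        g * x * g⁻¹ ∉ Subgroup.centralizer ({x} : Set G)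
    · -- a small class with non-commuting members
      obtain ⟨x, g, hxT, hg⟩ := hcase
      set H := Subgroup.centralizer ({x} : Set G) with hH
      have hdeg : ∀ ψ : IrrCharacter H, charDegree (ψ : H → ℂ) ≤ b - 1 := fun ψ => by
        have := deg_lt_of_moved hmax H (Subgroup.mem_centralizer_singleton_iff.2 rfl)
          (fun y hy => Subgroup.mem_centralizer_singleton_iff.1 hy) hg ψ
        omega
      by_cases h4 : b = 4
      · subst h4
        rw [if_pos rfl] at hT
        exact (HasAbelianOfIndexLE.of_subgroup H (hasAbelian_three hdeg) (hT ▸ hxT)).mono (by decide)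
      · rw [if_neg h4] at hT
        refine (HasAbelianOfIndexLE.of_subgroup H (ih (b - 1) (by omega) H hdeg) (hT ▸ hxT)).mono ?_
        obtain ⟨c, rfl⟩ : ∃ c, b = c + 1 := ⟨b - 1, by omega⟩
        rw [Nat.add_sub_cancel, Nat.factorial_succ, mul_pow, mul_comm]
    · push Not at hcase
      set F := fittingSubgroup G with hF
      haveI : F.Normal := Cores.fittingSubgroup_normal_inst G
      haveI : Group.IsNilpotent F := Cores.fittingSubgroup_isNilpotent
      have hcount := index_count hmax F (T := T) fun x hx => by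
        by_contra hle
        push Not at hle
        exact hx (mem_fitting_of_conj_commute fun g => hcase x g hle)
      by_cases hab : commutator G ≤ F
      · -- abelian quotient
        have hi := fitting_index_le hab hmax
        by_cases hFc : commutator F = ⊥
        · refine (HasAbelianOfIndexLE.of_subgroup F (hasAbelian_of_comm fun a c => ?_) hi).mono
            (by rw [one_mul]; exact (Nat.self_le_factorial b).trans (Nat.le_self_pow two_ne_zero _))
          have hz := (commutator_eq_bot_iff_center_eq_top _).1 hFc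
          exact Subgroup.mem_center_iff.1 (hz ▸ Subgroup.mem_top c) a
        obtain ⟨H, hHi, hHd⟩ := exists_half_degrees (G := F) hFc (b := b) fun θ => by
          obtain ⟨χ, hχ⟩ := exists_deg_dvd F θ
          exact (Nat.le_of_dvd (deg_pos χ) hχ).trans (hmax χ)
        have h := HasAbelianOfIndexLE.of_subgroup F (HasAbelianOfIndexLE.of_subgroup H
          (ih (b / 2) (by omega) H fun θ => by have := hHd θ; omega) hHi) hi
        refine h.mono ?_
        rw [show (b / 2)! ^ 2 * b ^ 2 * b = b ^ 3 * (b / 2)! ^ 2 by ring]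
        by_cases h4 : b = 4
        · subst h4; decide
        · exact (arith_five (by omega)).2
      · -- non-abelian quotient
        have hdeg : ∀ θ : IrrCharacter F, charDegree (θ : F → ℂ) ≤ b / 2 := fun θ => by
          have := two_mul_deg_le_of_nonabelian_quotient hmax F hab θ
          omega
        by_cases h4 : b = 4
        · subst h4
          rw [if_pos rfl] at hT
          rw [hT] at hcount
          exact (HasAbelianOfIndexLE.of_subgroup F (ih 2 (by norm_num) F hdeg)
            (M := 31) (by omega)).mono (by decide)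
        · rw [if_neg h4] at hT
          rw [hT] at hcount
          refine (HasAbelianOfIndexLE.of_subgroup F (ih (b / 2) (by omega) F hdeg)
            (M := b ^ 2 * (b ^ 2 + 1)) ?_).mono ?_
          · linarith [hcount]
          · rw [mul_comm]
            exact (arith_five (by omega)).1

end Cfsg.Agent.CharDeg
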