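import Cfsg.Agent.CharDeg.IndexBoundLemmas
import Cfsg.Agent.Char.Center

/-!
Two facts about the largest degree: a nilpotent non-abelian group has a subgroup of bounded index
with halved degrees, and an abelian quotient by the Fitting subgroup has order at most the largest
degree.
-/

set_option autoImplicit false
set_option linter.style.haveILetI false

noncomputable section

namespace Cfsg.Agent.CharDeg

open Cfsg
open scoped ComplexConjugate commutatorElement
open Cfsg.Agent.Char (irr_charDegree_spec)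

universe u
variable {G : Type u} [Group G] [Finite G]

/-- In a nilpotent non-abelian group some subgroup of index at most `b ^ 2` has halved degrees. -/
theorem exists_half_degrees [Group.IsNilpotent G] (hna : commutator G ≠ ⊥) {b : ℕ}
    (hmax : ∀ χ : IrrCharacter G, charDegree (χ : G → ℂ) ≤ b) :
    ∃ H : Subgroup G, H.index ≤ b ^ 2 ∧ ∀ θ : IrrCharacter H, 2 * charDegree (θ : H → ℂ) ≤ b := by
  classical
  letI := Fintype.ofFinite G
  obtain ⟨L, ⟨hLn, hL⟩, hmx⟩ :=
    ({L : Subgroup G | L.Normal ∧ ¬ commutator G ≤ L}.toFinite).exists_maximal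
      ⟨⊥, inferInstance, fun h => hna (le_bot_iff.1 h)⟩
  haveI := hLn
  set π := QuotientGroup.mk' L with hπ
  have hπs : Function.Surjective π := QuotientGroup.mk'_surjective L
  have hcom : commutator (G ⧸ L) = (commutator G).map π := by
    rw [commutator_def, commutator_def, Subgroup.map_commutator,
      Subgroup.map_top_of_surjective π hπs]
  have hnaQ : commutator (G ⧸ L) ≠ ⊥ := by
    rw [hcom, Ne, Subgroup.map_eq_bot_iff, QuotientGroup.ker_mk']
    exact hL
  have hmin : ∀ M : Subgroup (G ⧸ L), M.Normal → M ≠ ⊥ → commutator (G ⧸ L) ≤ M := by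
    intro M hM hMne
    rw [hcom, Subgroup.map_le_iff_le_comap]
    by_contra hcon
    have hle : L ≤ M.comap π := fun x hx => by
      rw [Subgroup.mem_comap, show π x = 1 from (QuotientGroup.eq_one_iff x).2 hx]
      exact M.one_mem
    have := le_antisymm (hmx ⟨hM.comap π, hcon⟩ hle) hle
    apply hMne
    rw [← Subgroup.map_comap_eq_self_of_surjective hπs M, this, QuotientGroup.map_mk'_self]
  haveI : Group.IsNilpotent (G ⧸ L) := Group.nilpotent_of_surjective π hπs
  have hcent : ∀ c ∈ commutator (G ⧸ L), c ∈ Subgroup.center (G ⧸ L) := by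
    by_contra hcon
    have hne : ⁅commutator (G ⧸ L), (⊤ : Subgroup (G ⧸ L))⁆ ≠ ⊥ := fun h => hcon fun c hc => by
      rw [← Subgroup.centralizer_univ, ← Subgroup.coe_top]
      exact (Subgroup.commutator_eq_bot_iff_le_centralizer.1 h) hc
    have hle := hmin _ inferInstance hne
    have hall : ∀ n : ℕ, commutator (G ⧸ L) ≤ (⊤ : Subgroup (G ⧸ L)).lowerCentralSeries n := by
      intro n
      induction n with
      | zero => exact le_top
      | succ n ih =>
        rw [Subgroup.lowerCentralSeries_succ]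
        exact hle.trans (Subgroup.commutator_mono ih le_rfl)
    obtain ⟨n, hn⟩ := Subgroup.nilpotent_iff_lowerCentralSeries.1 ‹Group.IsNilpotent (G ⧸ L)›
    exact hnaQ (le_bot_iff.1 (hn ▸ hall n))
  obtain ⟨β, hβ⟩ := CharGraph.exists_nonlinear_irr hnaQ
  have hfaith : ∀ q : G ⧸ L, (β : G ⧸ L → ℂ) q = (β : G ⧸ L → ℂ) 1 → q = 1 := by
    obtain ⟨K, hKn, hK⟩ := Char.isCharacter_exists_kernel (Char.isCharacter_of_irr β.2)
    suffices K = ⊥ by
      intro q hq
      have := (hK q).2 hq
      rwa [‹K = ⊥›, Subgroup.mem_bot] at this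
    by_contra hKne
    obtain ⟨γ, hγ, hγv⟩ := Char.irr_exists_descend β.2 K fun k hk => (hK k).1 hk
    refine hβ ?_
    have hc : ∀ u v : (G ⧸ L) ⧸ K, u * v = v * u := by
      intro u v
      obtain ⟨a, rfl⟩ := QuotientGroup.mk_surjective u
      obtain ⟨c, rfl⟩ := QuotientGroup.mk_surjective v
      rw [← commutatorElement_eq_one_iff_mul_comm]
      exact (QuotientGroup.eq_one_iff ⁅a, c⁆).2 (hmin K hKn hKne
        (Subgroup.commutator_mem_commutator (Subgroup.mem_top a) (Subgroup.mem_top c)))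
    have h1 := deg_eq_one_of_comm hc ⟨γ, hγ⟩
    have h2 := hγv 1
    rw [one_apply, QuotientGroup.mk_one] at h2
    have h3 := h2.trans (one_apply ⟨γ, hγ⟩)
    rw [h1] at h3
    exact_mod_cast h3
  set d := charDegree (β : G ⧸ L → ℂ) with hd
  have hzero : ∀ q : G ⧸ L, q ∉ Subgroup.center (G ⧸ L) → (β : G ⧸ L → ℂ) q = 0 := by
    intro q hq
    rw [Subgroup.mem_center_iff] at hq
    push Not at hq
    obtain ⟨y, hy⟩ := hq
    have hc : ⁅y, q⁆ ∈ Subgroup.center (G ⧸ L) :=
      hcent _ (Subgroup.commutator_mem_commutator (Subgroup.mem_top y) (Subgroup.mem_top q))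
    obtain ⟨ω, -, hω1, hω⟩ := Char.irr_mul_center β.2 hc
    have h1 := hω q
    rw [commutatorElement_def, inv_mul_cancel_right, Char.irr_isClassFunction β.2 q y] at h1
    by_contra hne
    have hω' : ω = 1 := (mul_eq_right₀ hne).1 h1.symm
    rw [hω', one_mul] at hω1
    exact hy (commutatorElement_eq_one_iff_mul_comm.1 (hfaith _ hω1))
  set H := (Subgroup.center (G ⧸ L)).comap π with hH
  haveI : H.Normal := inferInstanceAs ((Subgroup.center (G ⧸ L)).comap π).Normal
  letI := Fintype.ofFinite H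
  letI := Fintype.ofFinite (G ⧸ L)
  have hnorm : ∀ g : G, g ∈ H → (β : G ⧸ L → ℂ) g * conj ((β : G ⧸ L → ℂ) g) = (d : ℂ) ^ 2 := by
    intro g hg
    obtain ⟨ω, hω, hω1, -⟩ := Char.irr_mul_center β.2 (Subgroup.mem_comap.1 hg)
    rw [show (g : G ⧸ L) = π g from rfl, hω1, Complex.mul_conj', norm_mul,
      Complex.norm_eq_one_of_pow_eq_one hω (orderOf_pos _).ne', one_mul, one_apply, ← hd,
      Complex.norm_natCast]
    norm_num
  have hindex : H.index = d ^ 2 := by
    let ι : H.index * Nat.card H = Nat.card G := by rw [mul_comm, Subgroup.card_mul_index]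
    have h1 := Char.classInner_irr_self (CharGraph.inflate L β).2
    rw [classInner] at h1
    have h2 : ∀ g : G, (CharGraph.inflate L β : G → ℂ) g * conj ((CharGraph.inflate L β : G → ℂ) g) =
        if g ∈ H then (d : ℂ) ^ 2 else 0 := by
      intro g
      rw [CharGraph.inflate_apply]
      by_cases hg : g ∈ H
      · rw [if_pos hg, hnorm g hg]
      · rw [if_neg hg, hzero (g : G ⧸ L) hg, zero_mul]
    rw [Finset.sum_congr rfl fun g _ => h2 g, ← Finset.sum_filter, Finset.sum_const, nsmul_eq_mul,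
      ← Fintype.card_subtype, ← Nat.card_eq_fintype_card,
      inv_mul_eq_one₀ (Nat.cast_ne_zero.2 Nat.card_pos.ne')] at h1
    have h3 : Nat.card G = Nat.card H * d ^ 2 := by exact_mod_cast h1
    rw [← Subgroup.card_mul_index H] at h3
    exact Nat.eq_of_mul_eq_mul_left Nat.card_pos h3
  have hdb : d ≤ b := by
    rw [hd, ← CharGraph.charDegree_inflate L β]
    exact hmax _
  refine ⟨H, hindex ▸ Nat.pow_le_pow_left hdb 2, fun θ => ?_⟩
  obtain ⟨χ, hext | hχ⟩ := exists_extension_or_double H θ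
  swap
  · exact hχ.trans (hmax χ)
  set f := (CharGraph.inflate L β : G → ℂ) * (χ : G → ℂ) with hf
  have hirr : IsIrrCharacter G f := by
    refine Char.isIrrCharacter_iff_classInner.2 ⟨Char.isCharacter_mul
      (Char.isCharacter_of_irr (CharGraph.inflate L β).2) (Char.isCharacter_of_irr χ.2), ?_⟩
    have hθ := Char.classInner_irr_self θ.2
    rw [← hext, classInner, inv_mul_eq_one₀ (Nat.cast_ne_zero.2 Nat.card_pos.ne')] at hθ
    have hstep : ∀ g : G, f g * conj (f g) =
        if g ∈ H then (d : ℂ) ^ 2 * ((χ : G → ℂ) g * conj ((χ : G → ℂ) g)) else 0 := by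
      intro g
      rw [hf, Pi.mul_apply, map_mul, CharGraph.inflate_apply]
      by_cases hg : g ∈ H
      · rw [if_pos hg, ← hnorm g hg]; ring
      · rw [if_neg hg, hzero (g : G ⧸ L) hg]; ring
    rw [classInner, Finset.sum_congr rfl fun g _ => hstep g, ← Finset.sum_filter,
      Finset.sum_subtype (F := inferInstance) (p := fun g => g ∈ H) _ (fun g => by simp),
      ← Finset.mul_sum, ← hθ, inv_mul_eq_one₀ (Nat.cast_ne_zero.2 Nat.card_pos.ne'),
      ← Subgroup.card_mul_index H, hindex]
    push_cast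
    ring
  have hle := hmax ⟨f, hirr⟩
  have hdf := (irr_charDegree_spec hirr).2
  rw [hf, Pi.mul_apply, one_apply, one_apply, CharGraph.charDegree_inflate] at hdf
  have hdf' : d * charDegree (χ : G → ℂ) = charDegree f := by exact_mod_cast hdf
  rw [← hdf'] at hle
  have hθd : charDegree (χ : G → ℂ) = charDegree (θ : H → ℂ) := by
    have h1 := congrFun hext 1
    simp only [OneMemClass.coe_one, one_apply] at h1
    exact_mod_cast h1
  rw [← hθd]
  refine (Nat.mul_le_mul_right _ ?_).trans hle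
  have := deg_pos β
  omega

omit [Finite G] in
theorem pow_card_of_mem {H : Subgroup G} {x : G} (hx : x ∈ H) : x ^ Nat.card H = 1 :=
  congrArg Subtype.val (pow_card_eq_one' (x := (⟨x, hx⟩ : H)))

omit [Finite G] in
theorem three_sub_le {A B C N : Subgroup G} [N.Normal] (h1 : ⁅⁅B, C⁆, A⁆ ≤ N)
    (h2 : ⁅⁅C, A⁆, B⁆ ≤ N) : ⁅⁅A, B⁆, C⁆ ≤ N := by
  have e : ∀ S : Subgroup G, S ≤ N ↔ S.map (QuotientGroup.mk' N) = ⊥ := fun S => by
    rw [Subgroup.map_eq_bot_iff, QuotientGroup.ker_mk']
  rw [e, Subgroup.map_commutator, Subgroup.map_commutator] at h1 h2 ⊢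
  exact Subgroup.commutator_commutator_eq_bot_of_rotate h1 h2

/-- A `p`-element trivial on the abelianisation of a nilpotent normal `p'`-subgroup centralises
it. -/
theorem centralizes_of_mem_derived {p : ℕ} (hp : p.Prime) {R : Subgroup G} [R.Normal]
    (hR : Group.IsNilpotent R) (hcop : ¬ p ∣ Nat.card R) {s : G} {a : ℕ} (hs : s ^ p ^ a = 1)
    (h : ∀ x ∈ R, s * x * s⁻¹ * x⁻¹ ∈ ⁅R, R⁆) : ∀ x ∈ R, s * x = x * s := by
  have hnorm : ∀ n, (R.lowerCentralSeries n).Normal := by
    intro n
    induction n with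
    | zero => rw [Subgroup.lowerCentralSeries_zero]; infer_instance
    | succ n ih => rw [Subgroup.lowerCentralSeries_succ]; infer_instance
  have h0 : ⁅R, Subgroup.zpowers s⁆ ≤ ⁅R, R⁆ := by
    rw [Subgroup.commutator_comm]
    have e : ∀ S : Subgroup G, S ≤ ⁅R, R⁆ ↔ S.map (QuotientGroup.mk' ⁅R, R⁆) = ⊥ := fun S => by
      rw [Subgroup.map_eq_bot_iff, QuotientGroup.ker_mk']
    rw [e, Subgroup.map_commutator, Subgroup.commutator_eq_bot_iff_le_centralizer,
      MonoidHom.map_zpowers, Subgroup.zpowers_le, Subgroup.mem_centralizer_iff]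
    rintro _ ⟨x, hx, rfl⟩
    have h1 : QuotientGroup.mk' ⁅R, R⁆ (s * x * s⁻¹ * x⁻¹) = 1 :=
      (QuotientGroup.eq_one_iff _).2 (h x hx)
    rw [map_mul, map_mul, map_mul, map_inv, map_inv, mul_inv_eq_one, mul_inv_eq_iff_eq_mul] at h1
    exact h1.symm
  have hstep : ∀ n, ⁅R.lowerCentralSeries n, Subgroup.zpowers s⁆ ≤ R.lowerCentralSeries (n + 1) := by
    intro n
    induction n with
    | zero => exact h0
    | succ n ih =>
      haveI := hnorm (n + 1 + 1)
      conv_lhs => rw [Subgroup.lowerCentralSeries_succ]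
      refine three_sub_le ?_ ?_
      · -- `⁅⁅R, ⟨s⟩⁆, Rₙ⁆`
        refine (Subgroup.commutator_mono h0 le_rfl).trans (three_sub_le ?_ ?_)
        · rw [Subgroup.commutator_comm R (R.lowerCentralSeries n)]
          rfl
        · rfl
      · rw [Subgroup.commutator_comm (Subgroup.zpowers s)]
        exact Subgroup.commutator_mono ih le_rfl
  obtain ⟨N, hN⟩ := (Subgroup.isNilpotent_iff_lowerCentralSeries R).1 hR
  have hall : ∀ k, ∀ x ∈ R.lowerCentralSeries (N - k), s * x = x * s := by
    intro k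
    induction k with
    | zero =>
      intro x hx
      rw [Nat.sub_zero, hN, Subgroup.mem_bot] at hx
      rw [hx, mul_one, one_mul]
    | succ k ih =>
      intro x hx
      rcases Nat.lt_or_ge k N with hk | hk
      swap
      · rw [show N - (k + 1) = N - k by omega] at hx
        exact ih x hx
      set c := s * x * s⁻¹ * x⁻¹ with hc
      have hcm : c ∈ R.lowerCentralSeries (N - k) := by
        have h1 := hstep (N - (k + 1)) (Subgroup.commutator_mem_commutator hx
          (Subgroup.mem_zpowers s))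
        rw [show N - (k + 1) + 1 = N - k by omega] at h1
        have h2 := Subgroup.inv_mem _ h1
        rwa [commutatorElement_inv, commutatorElement_def] at h2
      have hcs := ih c hcm
      have hpow : ∀ j : ℕ, s ^ j * x * (s ^ j)⁻¹ = c ^ j * x := by
        intro j
        induction j with
        | zero => simp
        | succ j hj =>
          have e : Commute (s ^ j) c := (show Commute s c from hcs).pow_left j
          calc s ^ (j + 1) * x * (s ^ (j + 1))⁻¹
              = s ^ j * (s * x * s⁻¹) * (s ^ j)⁻¹ := by rw [pow_succ]; group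
            _ = s ^ j * (c * x) * (s ^ j)⁻¹ := by rw [hc, inv_mul_cancel_right]
            _ = c * (s ^ j * x * (s ^ j)⁻¹) := by
              rw [← mul_assoc (s ^ j) c, e.eq]; group
            _ = c ^ (j + 1) * x := by rw [hj, pow_succ', ← mul_assoc]
      have h1 : c ^ p ^ a = 1 := by
        have := hpow (p ^ a)
        rw [hs, one_mul, inv_one, mul_one] at this
        exact right_eq_mul.1 this
      have h2 : c ^ Nat.card R = 1 :=
        congrArg Subtype.val
          (pow_card_eq_one' (x := (⟨c, R.lowerCentralSeries_le_self _ hcm⟩ : R)))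
      have h3 := pow_gcd_eq_one.2 ⟨h1, h2⟩
      rw [((hp.coprime_iff_not_dvd.2 hcop).pow_left a).gcd_eq_one, pow_one, hc,
        mul_inv_eq_one, mul_inv_eq_iff_eq_mul] at h3
      exact h3
  intro x hx
  exact hall N x (by rwa [Nat.sub_self, Subgroup.lowerCentralSeries_zero])

/-- An abelian quotient by the Fitting subgroup has order at most the largest degree. -/
theorem fitting_index_le {b : ℕ} (hab : commutator G ≤ fittingSubgroup G)
    (hmax : ∀ χ : IrrCharacter G, charDegree (χ : G → ℂ) ≤ b) :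
    (fittingSubgroup G).index ≤ b := by
  classical
  set F := fittingSubgroup G with hF
  haveI : F.Normal := Cores.fittingSubgroup_normal_inst G
  haveI hFnil : Group.IsNilpotent F := Cores.fittingSubgroup_isNilpotent
  haveI : Finite (F →* ℂˣ) := Char.monoidHom_complex_finite
  have hswap : ∀ g h : G, ∀ w : F →* ℂˣ, cjl F (g * h) w = cjl F (h * g) w := by
    intro g h w
    conv_lhs => rw [show g * h = ⁅g, h⁆ * (h * g) by rw [commutatorElement_def]; group, ← cjl_cjl,
      mem_lstab.1 (le_lstab w (hab (Subgroup.commutator_mem_commutator (Subgroup.mem_top g)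
        (Subgroup.mem_top h))))]
  obtain ⟨l, hl⟩ := Finite.exists_min fun w : F →* ℂˣ => Nat.card ↥(lstab F w)
  suffices hlF : lstab F l = F by
    obtain ⟨χ, hχ⟩ := lstab_index_dvd l
    rw [hlF] at hχ
    exact (Nat.le_of_dvd (deg_pos χ) hχ).trans (hmax χ)
  by_contra hne
  obtain ⟨t, htl, htF⟩ : ∃ t, t ∈ lstab F l ∧ t ∉ F := by
    by_contra hc
    push Not at hc
    exact hne (le_antisymm hc (le_lstab l))
  -- a `p`-element outside `F` with `p`-th power inside
  set k := orderOf (t : G ⧸ F) with hk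
  have hk1 : k ≠ 1 := fun h => htF ((QuotientGroup.eq_one_iff t).1 (orderOf_eq_one_iff.1 h))
  set p := k.minFac with hpdef
  have hp : p.Prime := Nat.minFac_prime hk1
  haveI : Fact p.Prime := ⟨hp⟩
  set t1 := t ^ (k / p) with ht1
  have ht1p : orderOf (t1 : G ⧸ F) = p := by
    rw [ht1, QuotientGroup.mk_pow]
    exact orderOf_pow_orderOf_div (orderOf_pos (t : G ⧸ F)).ne' (Nat.minFac_dvd k)
  obtain ⟨a, n, hpn, han⟩ :=
    Nat.exists_eq_pow_mul_and_not_dvd (orderOf_pos t1).ne' p hp.ne_one
  set s := t1 ^ n with hsdef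
  have hs1 : s ^ p ^ a = 1 := by
    rw [hsdef, ← pow_mul, mul_comm, ← han, pow_orderOf_eq_one]
  have hsl : s ∈ lstab F l := pow_mem (pow_mem htl _) _
  have hspF : s ^ p ∈ F := by
    rw [← QuotientGroup.eq_one_iff, hsdef, ← pow_mul, mul_comm, pow_mul, QuotientGroup.mk_pow,
      QuotientGroup.mk_pow, ← ht1p, pow_orderOf_eq_one, one_pow]
  have hsF : s ∉ F := by
    intro h
    rw [← QuotientGroup.eq_one_iff, hsdef, QuotientGroup.mk_pow, ← orderOf_dvd_iff_pow_eq_one,
      ht1p] at h
    exact hpn h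
  set P := pCore p G with hPdef
  set R := F ⊓ pPrimeCore p G with hRdef
  haveI : R.Normal := Subgroup.normal_inf_normal F (pPrimeCore p G)
  have hPF : P ≤ F := Cores.pCore_le_fittingSubgroup
  have hPp : IsPGroup p P := Cores.pCore_isPGroup
  have hRF : R ≤ F := inf_le_left
  have hRp : ¬ p ∣ Nat.card R := fun h =>
    hp.coprime_iff_not_dvd.1 (Cores.pPrimeCore_coprime (p := p) (G := G)).symm
      (h.trans (Subgroup.card_dvd_of_le inf_le_right))
  obtain ⟨e, he⟩ := IsPGroup.iff_card.1 hPp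
  have hPR : P ⊓ R = ⊥ := by
    refine disjoint_iff.1 (Subgroup.disjoint_of_coprime_natCard ?_)
    rw [he]
    exact (hp.coprime_iff_not_dvd.2 hRp).pow_left e
  have hcomm : ∀ y ∈ P, ∀ r ∈ R, y * r = r * y := fun y hy r hr =>
    Subgroup.commute_of_normal_of_disjoint P R inferInstance inferInstance (disjoint_iff.2 hPR)
      y r hy hr
  have hdec : ∀ f ∈ F, ∃ y ∈ P, ∃ r ∈ R, f = y * r := by
    intro f hf
    obtain ⟨y, hy, r, hr, h⟩ := Subgroup.mem_sup_of_normal_right.1 (mem_pPrime_sup (p := p) hf)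
    exact ⟨y, hy, r, hr, h.symm⟩
  obtain ⟨v, hv, hvpow⟩ : ∃ v : F →* ℂˣ, s ∉ lstab F v ∧ ∀ f, v f ^ Nat.card R = 1 := by
    by_contra hcon
    push Not at hcon
    -- `s` is trivial on the abelianisation of `R`
    have hder : ∀ x ∈ R, s * x * s⁻¹ * x⁻¹ ∈ ⁅R, R⁆ := by
      intro x hx
      have hcR : s * x * s⁻¹ * x⁻¹ ∈ R :=
        R.mul_mem (Subgroup.Normal.conj_mem inferInstance x hx s) (R.inv_mem hx)
      have hcF' : (⟨s * x * s⁻¹ * x⁻¹, hRF hcR⟩ : F) ∈ commutator F := by
        have hinj : ∀ c : F, (∀ w : F →* ℂˣ, w c = 1) → c ∈ commutator F := by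
          intro c hc
          by_contra hcn
          obtain ⟨w, hw⟩ := exists_lin_ne (B := Abelianization F) (fun a b => mul_comm a b)
            (x := Abelianization.of c) (fun h => hcn (by
              rwa [← Abelianization.ker_of, MonoidHom.mem_ker]))
          exact hw (hc (w.comp Abelianization.of))
        refine hinj _ fun w => ?_
        have h1 : (w ⟨s * x * s⁻¹ * x⁻¹, hRF hcR⟩) ^ Nat.card R = 1 := by
          rw [← map_pow,
            show (⟨s * x * s⁻¹ * x⁻¹, hRF hcR⟩ : F) ^ Nat.card R = 1 from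
              Subtype.ext (pow_card_of_mem hcR), map_one]
        have h2 : (w ⟨s * x * s⁻¹ * x⁻¹, hRF hcR⟩) ^ p ^ e = 1 := by
          have hfix : s ∈ lstab F (w ^ p ^ e) := by
            by_contra hns
            obtain ⟨f, hf⟩ := hcon (w ^ p ^ e) hns
            refine hf ?_
            obtain ⟨y, hy, r, hr, hfr⟩ := hdec f f.2
            have ef : f = (⟨y, hPF hy⟩ : F) * ⟨r, hRF hr⟩ := Subtype.ext hfr
            rw [MonoidHom.pow_apply, ef, map_mul, mul_pow, mul_pow, ← map_pow, ← map_pow,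
              show (⟨y, hPF hy⟩ : F) ^ p ^ e = 1 from Subtype.ext (he ▸ pow_card_of_mem hy),
              one_pow, map_one, one_mul, ← pow_mul, mul_comm, pow_mul, ← map_pow,
              show (⟨r, hRF hr⟩ : F) ^ Nat.card R = 1 from Subtype.ext (pow_card_of_mem hr),
              map_one, one_pow]
          have h3 := DFunLike.congr_fun (mem_lstab.1 hfix) (⟨x, hRF hx⟩ : F)
          rw [cjl_apply, MonoidHom.pow_apply, MonoidHom.pow_apply] at h3
          rw [show (⟨s * x * s⁻¹ * x⁻¹, hRF hcR⟩ : F) =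
            MulAut.conjNormal s (⟨x, hRF hx⟩ : F) * (⟨x, hRF hx⟩ : F)⁻¹ from
              Subtype.ext (by simp), map_mul, map_inv, mul_pow, inv_pow, h3, mul_inv_cancel]
        have h3 := pow_gcd_eq_one.2 ⟨h2, h1⟩
        rwa [((hp.coprime_iff_not_dvd.2 hRp).pow_left e).gcd_eq_one, pow_one] at h3
      have hcF : s * x * s⁻¹ * x⁻¹ ∈ ⁅F, F⁆ := by
        have hmap : (commutator F).map F.subtype = ⁅F, F⁆ := by
          rw [commutator_def, Subgroup.map_commutator, ← MonoidHom.range_eq_map,
            Subgroup.range_subtype]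
        rw [← hmap]
        exact ⟨_, hcF', rfl⟩
      have hFF : ⁅F, F⁆ ≤ ⁅P, P⁆ ⊔ ⁅R, R⁆ := by
        rw [Subgroup.commutator_le]
        intro g₁ hg₁ g₂ hg₂
        obtain ⟨y₁, hy₁, r₁, hr₁, rfl⟩ := hdec g₁ hg₁
        obtain ⟨y₂, hy₂, r₂, hr₂, rfl⟩ := hdec g₂ hg₂
        let φ : P × R →* G := MonoidHom.noncommCoprod P.subtype R.subtype
          fun y r => hcomm y y.2 r r.2
        have e1 : y₁ * r₁ = φ (⟨y₁, hy₁⟩, ⟨r₁, hr₁⟩) := rfl
        have e2 : y₂ * r₂ = φ (⟨y₂, hy₂⟩, ⟨r₂, hr₂⟩) := rfl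
        rw [e1, e2, ← map_commutatorElement]
        exact Subgroup.mul_mem_sup
          (Subgroup.commutator_mem_commutator hy₁ hy₂ : ⁅y₁, y₂⁆ ∈ ⁅P, P⁆)
          (Subgroup.commutator_mem_commutator hr₁ hr₂ : ⁅r₁, r₂⁆ ∈ ⁅R, R⁆)
      obtain ⟨u, hu, w, hw, huw⟩ := Subgroup.mem_sup_of_normal_right.1 (hFF hcF)
      have huP : u ∈ P ⊓ R := by
        refine Subgroup.mem_inf.2 ⟨Subgroup.commutator_le_left P P hu, ?_⟩
        rw [show u = (s * x * s⁻¹ * x⁻¹) * w⁻¹ by rw [← huw, mul_inv_cancel_right]]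
        exact R.mul_mem hcR (R.inv_mem (Subgroup.commutator_le_left R R hw))
      rw [hPR, Subgroup.mem_bot] at huP
      rw [← huw, huP, one_mul]
      exact hw
    have hRnil : Group.IsNilpotent R := by
      obtain ⟨N, hN⟩ := (Subgroup.isNilpotent_iff_lowerCentralSeries F).1 hFnil
      exact (Subgroup.isNilpotent_iff_lowerCentralSeries R).2
        ⟨N, le_bot_iff.1 (hN ▸ Subgroup.lowerCentralSeries_mono N hRF)⟩
    have hsR := centralizes_of_mem_derived hp hRnil hRp hs1 hder
    -- then `P ⊔ ⟨s⟩` is a normal `p`-subgroup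
    set Q := P ⊔ Subgroup.zpowers s with hQ
    have hQp : IsPGroup p Q := IsPGroup.to_sup_of_normal_left hPp
      (IsPGroup.of_card_dvd_pow (n := a)
        (by rw [Nat.card_zpowers]; exact orderOf_dvd_of_pow_eq_one hs1))
    have hconj : ∀ g : G, g * s * g⁻¹ ∈ Q := by
      intro g
      have hgF : g * s * g⁻¹ * s⁻¹ ∈ F := by
        have := hab (Subgroup.commutator_mem_commutator (Subgroup.mem_top g) (Subgroup.mem_top s))
        rwa [commutatorElement_def] at this
      obtain ⟨y, hy, r, hr, hyr⟩ := hdec _ hgF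
      have e1 : g * s * g⁻¹ = y * (r * s) := by
        rw [← mul_assoc, ← hyr, inv_mul_cancel_right]
      -- `r * s` lies in the `p`-group `P ⊔ ⟨g s g⁻¹⟩`
      have hQ2 : IsPGroup p (P ⊔ Subgroup.zpowers (g * s * g⁻¹) : Subgroup G) := by
        refine IsPGroup.to_sup_of_normal_left hPp (IsPGroup.of_card_dvd_pow (n := a) ?_)
        rw [Nat.card_zpowers]
        refine orderOf_dvd_of_pow_eq_one ?_
        rw [conj_pow, hs1, mul_one, mul_inv_cancel]
      have hmem : r * s ∈ P ⊔ Subgroup.zpowers (g * s * g⁻¹) := by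
        rw [show r * s = y⁻¹ * (g * s * g⁻¹) by rw [e1]; group]
        exact Subgroup.mul_mem_sup (P.inv_mem hy) (Subgroup.mem_zpowers _)
      obtain ⟨j, hj⟩ := hQ2 ⟨_, hmem⟩
      have hj' : (r * s) ^ p ^ (j + a) = 1 := by
        rw [pow_add, pow_mul, show (r * s) ^ p ^ j = 1 from congrArg Subtype.val hj, one_pow]
      rw [(show Commute r s from (hsR r hr).symm).mul_pow] at hj'
      have hs' : s ^ p ^ (j + a) = 1 := by rw [pow_add, mul_comm, pow_mul, hs1, one_pow]
      rw [hs', mul_one] at hj'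
      have hr' : r ^ Nat.card R = 1 :=
        congrArg Subtype.val (pow_card_eq_one' (x := (⟨r, hr⟩ : R)))
      have h3 := pow_gcd_eq_one.2 ⟨hj', hr'⟩
      rw [((hp.coprime_iff_not_dvd.2 hRp).pow_left (j + a)).gcd_eq_one, pow_one] at h3
      rw [e1, h3, one_mul]
      exact Subgroup.mul_mem_sup hy (Subgroup.mem_zpowers s)
    have hQn : Q.Normal := by
      refine ⟨fun x hx g => ?_⟩
      have hle : Q.map (MulAut.conj g).toMonoidHom ≤ Q := by
        rw [hQ, Subgroup.map_sup, MonoidHom.map_zpowers]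
        refine sup_le ?_ ((Subgroup.zpowers_le).2 (hconj g))
        rintro _ ⟨y, hy, rfl⟩
        exact Subgroup.mem_sup_left (Subgroup.Normal.conj_mem inferInstance y hy g)
      exact hle ⟨x, hx, rfl⟩
    exact hsF (hPF (Cores.le_pCore hQn hQp (Subgroup.mem_sup_right (Subgroup.mem_zpowers s))))
  -- shift `l`
  set u := cjl F s v * v⁻¹ with hu
  have hun : ∀ f, u f ^ Nat.card R = 1 := by
    intro f
    rw [hu, MonoidHom.mul_apply, MonoidHom.inv_apply, mul_pow, inv_pow, cjl_apply, hvpow, hvpow,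
      inv_one, mul_one]
  have hshift : ∀ (x δ : F →* ℂˣ), (∀ f, δ f ^ Nat.card R = 1) →
      (∀ f, cjl F s x f = x f * δ f) → cjl F s δ = δ → ∀ f, δ f = 1 := by
    intro x δ hδn hx hδ
    have hpow : ∀ (j : ℕ) (f : F), cjl F (s ^ j) x f = x f * δ f ^ j := by
      intro j
      induction j with
      | zero => simp
      | succ j ih =>
        intro f
        rw [pow_succ, ← cjl_cjl, cjl_apply, ih, ← cjl_apply s x, ← cjl_apply s δ, hδ, hx,
          mul_assoc, ← pow_succ']
    intro f
    have h1 : δ f ^ p = 1 := by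
      have := hpow p f
      rw [mem_lstab.1 (le_lstab x hspF)] at this
      exact left_eq_mul.1 this
    have := pow_gcd_eq_one.2 ⟨h1, hδn f⟩
    rwa [(hp.coprime_iff_not_dvd.2 hRp).gcd_eq_one, pow_one] at this
  have hle : lstab F (l * u) ≤ lstab F l := by
    intro g hg
    replace hg := mem_lstab.1 hg
    set δ := cjl F g l * l⁻¹ with hδdef
    set x := v * (cjl F g v)⁻¹ with hxdef
    have hδ : cjl F s δ = δ := by
      rw [hδdef, cjl_mul, cjl_inv, cjl_cjl, hswap g s, ← cjl_cjl, mem_lstab.1 hsl]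
    have e4 : ∀ f, δ f = u f * (cjl F g u f)⁻¹ := by
      intro f
      have h4 : cjl F g l f * cjl F g u f = l f * u f := DFunLike.congr_fun hg f
      rw [hδdef, MonoidHom.mul_apply, MonoidHom.inv_apply, mul_inv_eq_iff_eq_mul, mul_right_comm,
        eq_mul_inv_iff_mul_eq, h4, mul_comm]
    have hx : ∀ f, cjl F s x f = x f * δ f := by
      intro f
      have e1 : cjl F s x = cjl F s v * (cjl F g (cjl F s v))⁻¹ := by
        rw [hxdef, cjl_mul, cjl_inv, cjl_cjl, hswap g s, ← cjl_cjl]
      have e2 : cjl F g u f = cjl F g (cjl F s v) f * (cjl F g v f)⁻¹ := by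
        rw [hu, cjl_mul, cjl_inv, MonoidHom.mul_apply, MonoidHom.inv_apply]
      have e3 : u f = cjl F s v f * (v f)⁻¹ := rfl
      rw [e1, e4]
      simp only [hxdef, MonoidHom.mul_apply, MonoidHom.inv_apply]
      rw [e2, e3, mul_inv_rev, inv_inv,
        show v f * (cjl F g v f)⁻¹ * (cjl F s v f * (v f)⁻¹ *
          (cjl F g v f * (cjl F g (cjl F s v) f)⁻¹)) =
          (v f * (v f)⁻¹) * ((cjl F g v f)⁻¹ * cjl F g v f) *
            (cjl F s v f * (cjl F g (cjl F s v) f)⁻¹) by ac_rfl,
        mul_inv_cancel, inv_mul_cancel, one_mul, one_mul]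
    refine mem_lstab.2 (MonoidHom.ext fun f => ?_)
    have := hshift x δ (fun f => by
      rw [e4, mul_pow, inv_pow, hun, cjl_apply, hun, inv_one, mul_one]) hx hδ f
    rwa [hδdef, MonoidHom.mul_apply, MonoidHom.inv_apply, mul_inv_eq_one] at this
  have heq := Subgroup.eq_of_le_of_card_ge hle (hl (l * u))
  have hsu : s ∈ lstab F (l * u) := heq ▸ hsl
  rw [mem_lstab, cjl_mul, mem_lstab.1 hsl] at hsu
  have hu' : cjl F s u = u :=
    MonoidHom.ext fun f => mul_left_cancel (a := l f) (DFunLike.congr_fun hsu f)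
  refine hv (mem_lstab.2 (MonoidHom.ext fun f => ?_))
  have := hshift v u hun (fun f => by
    simp only [hu, MonoidHom.mul_apply, MonoidHom.inv_apply, mul_comm (cjl F s v f),
      mul_inv_cancel_left]) hu' f
  rwa [hu, MonoidHom.mul_apply, MonoidHom.inv_apply, mul_inv_eq_one] at this

end Cfsg.Agent.CharDeg
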