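import Cfsg.Agent.CharDeg.Garrison
import Cfsg.Agent.CharExt.Gallagher

/-!
Ingredients of the bound on the index of an abelian subgroup in terms of the largest degree:
a class-size dichotomy and a count.
-/

set_option autoImplicit false
set_option linter.style.haveILetI false

noncomputable section

namespace Cfsg.Agent.CharDeg

open Cfsg
open scoped ComplexConjugate commutatorElement
open Cfsg.Agent.Char (irr_charDegree_spec)

universe u
variable {G : Type u} [Group G] [Finite G]

/-- An induced character of full absolute value at `g` forces `g` into the subgroup. -/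
theorem mem_of_indFun_eq_smul [Fintype G] (H : Subgroup G) {θ : H → ℂ} (hθ : IsCharacter H θ)
    (h0 : θ 1 ≠ 0) {g : G} {ω : ℂ} (hω : ‖ω‖ = 1)
    (h : indFun H θ g = ω * indFun H θ 1) : g ∈ H := by
  classical
  by_contra hg
  obtain ⟨n, hn⟩ := Char.isCharacter_one_nat hθ
  have hn0 : 0 < n := Nat.pos_of_ne_zero fun h1 => h0 (by rw [hn, h1, Nat.cast_zero])
  have h1 : ‖∑ x : G, extendByZero H θ (x⁻¹ * g * x)‖ < (Nat.card G : ℝ) * n := by
    refine (norm_sum_le _ _).trans_lt ?_
    rw [show (Nat.card G : ℝ) * n = ∑ _x : G, (n : ℝ) by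
      rw [Finset.sum_const, Finset.card_univ, nsmul_eq_mul, Nat.card_eq_fintype_card]]
    refine Finset.sum_lt_sum (fun x _ => ?_) ⟨1, Finset.mem_univ _, ?_⟩
    · by_cases hx : x⁻¹ * g * x ∈ H
      · rw [CharInd.extendByZero_mem H θ hx]
        refine (Char.isCharacter_norm_le hθ _).trans ?_
        simp [hn]
      · rw [CharInd.extendByZero_notMem H θ hx]
        simp
    · rw [CharInd.extendByZero_notMem H θ (by simpa using hg)]
      simpa using hn0
  have e := congrArg (fun z => (Nat.card H : ℂ) * z) h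
  simp only [CharInd.card_mul_indFun] at e
  rw [e, CharInd.indFun_one_apply, hn, norm_mul, norm_mul, hω, one_mul, norm_mul,
    Complex.norm_natCast, Complex.norm_natCast, Complex.norm_natCast, ← mul_assoc, ← Nat.cast_mul,
    H.card_mul_index] at h1
  exact lt_irrefl _ h1

/-- If some conjugate of a central element of `H` lies outside `H`, degrees drop in `H`. -/
theorem deg_lt_of_moved {b : ℕ} (hmax : ∀ χ : IrrCharacter G, charDegree (χ : G → ℂ) ≤ b)
    (H : Subgroup G) {x g : G} (hxH : x ∈ H) (hxc : ∀ y ∈ H, y * x = x * y)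
    (hg : g * x * g⁻¹ ∉ H) (ψ : IrrCharacter H) : charDegree (ψ : H → ℂ) < b := by
  classical
  letI := Fintype.ofFinite G
  letI := Fintype.ofFinite H
  by_contra hcon
  push Not at hcon
  have hz : (⟨x, hxH⟩ : H) ∈ Subgroup.center H := by
    rw [Subgroup.mem_center_iff]
    exact fun y => Subtype.ext (hxc y y.2)
  obtain ⟨ω, hω, hωx, -⟩ := Char.irr_mul_center ψ.2 hz
  have hωn : ‖ω‖ = 1 := Complex.norm_eq_one_of_pow_eq_one hω (orderOf_pos _).ne'
  have hΦ := CharInd.isCharacter_indFun H (Char.isCharacter_of_irr ψ.2)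
  obtain ⟨m, hm, hm'⟩ := Char.isCharacter_exists_coeff hΦ
  refine hg (mem_of_indFun_eq_smul H (Char.isCharacter_of_irr ψ.2) (Char.irr_one_ne_zero ψ.2) hωn ?_)
  rw [hm, Finset.sum_apply, Finset.sum_apply, Finset.mul_sum]
  refine Finset.sum_congr rfl fun ξ _ => ?_
  simp only [Pi.smul_apply, nsmul_eq_mul]
  rcases Nat.eq_zero_or_pos (m ξ) with h0 | h0
  · simp [h0]
  rw [Char.irr_isClassFunction ξ.2 x g]
  have h1 : classInner (indFun H (ψ : H → ℂ)) (ξ : G → ℂ) ≠ 0 := by
    rw [hm']; exact_mod_cast h0.ne'
  rw [CharInd.classInner_indFun_left H _ (Char.irr_isClassFunction ξ.2), ← Char.classInner_conj] at h1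
  have h2 := CharInd.eq_of_constituent_of_degree
    (CharInd.isCharacter_res H (Char.isCharacter_of_irr ξ.2)) ψ.2
    (fun h => h1 (by rw [h, map_zero]))
    (by
      rw [OneMemClass.coe_one, one_apply, one_apply, Complex.natCast_re, Complex.natCast_re]
      exact_mod_cast (hmax ξ).trans hcon)
  have e1 := congrFun h2 ⟨x, hxH⟩
  have e2 := congrFun h2 1
  simp only [OneMemClass.coe_one] at e1 e2
  rw [e1, e2, hωx]
  ring

/-- Counting classes: a subgroup containing every element with at most `T` conjugates has small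
index. -/
theorem index_count {b T : ℕ} (hmax : ∀ χ : IrrCharacter G, charDegree (χ : G → ℂ) ≤ b)
    (F : Subgroup G) (hT : ∀ x, x ∉ F → T < (Subgroup.centralizer ({x} : Set G)).index) :
    F.index * (T + 1) ≤ (T + 1) * b ^ 2 + b ^ 2 * F.index := by
  classical
  letI := Fintype.ofFinite G
  letI := Fintype.ofFinite (IrrCharacter G)
  have h0 : Nat.card G ≤ Nat.card (ConjClasses G) * b ^ 2 := by
    have h : ∑ ψ : IrrCharacter G, charDegree (ψ : G → ℂ) ^ 2 = Nat.card G := by
      have := Char.sum_irr_degree_sq (G := G)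
      simp only [one_apply] at this
      exact_mod_cast this
    rw [← h, ← Char.card_irr_eq_card_conjClasses, Nat.card_eq_fintype_card, ← smul_eq_mul,
      ← Finset.card_univ]
    exact Finset.sum_le_card_nsmul _ _ _ fun ψ _ => Nat.pow_le_pow_left (hmax ψ) 2
  have h1 : ∑ x : G, Nat.card (Subgroup.centralizer ({x} : Set G)) =
      Nat.card (ConjClasses G) * Nat.card G := by
    rw [← card_comm_eq_card_conjClasses_mul_card,
      Nat.card_congr (Equiv.subtypeProdEquivSigmaSubtype fun a c : G => Commute a c), Nat.card_sigma]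
    refine Finset.sum_congr rfl fun x _ => Nat.card_congr (Equiv.subtypeEquivRight fun c => ?_)
    rw [Subgroup.mem_centralizer_singleton_iff]
    exact ⟨fun h => h.symm, fun h => h.symm⟩
  have h2 : (T + 1) * (Nat.card (ConjClasses G) * Nat.card G) ≤
      (T + 1) * Nat.card F * Nat.card G + Nat.card G * Nat.card G := by
    rw [← h1, Finset.mul_sum]
    have hle : ∀ x : G, (T + 1) * Nat.card (Subgroup.centralizer ({x} : Set G)) ≤
        (if x ∈ F then (T + 1) * Nat.card G else 0) + Nat.card G := by
      intro x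
      by_cases hx : x ∈ F
      · rw [if_pos hx]
        exact (Nat.mul_le_mul_left _ (Subgroup.card_le_card_group _)).trans (Nat.le_add_right _ _)
      · rw [if_neg hx, zero_add]
        exact (Nat.mul_le_mul_right _ (hT x hx)).trans_eq
          (by rw [mul_comm, Subgroup.card_mul_index])
    refine (Finset.sum_le_sum fun x _ => hle x).trans_eq ?_
    rw [Finset.sum_add_distrib, ← Finset.sum_filter, Finset.sum_const, Finset.sum_const,
      Finset.card_univ, smul_eq_mul, smul_eq_mul, ← Nat.card_eq_fintype_card (α := G),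
      ← Fintype.card_subtype, ← Nat.card_eq_fintype_card]
    ring
  have hGpos : 0 < Nat.card G := Nat.card_pos
  have hFpos : 0 < Nat.card F := Nat.card_pos
  have h3 : (T + 1) * Nat.card (ConjClasses G) ≤ (T + 1) * Nat.card F + Nat.card G :=
    Nat.le_of_mul_le_mul_right (by linarith [h2]) hGpos
  have hi : Nat.card G = Nat.card F * F.index := (Subgroup.card_mul_index F).symm
  refine Nat.le_of_mul_le_mul_left ?_ hFpos
  calc Nat.card F * (F.index * (T + 1)) = (T + 1) * Nat.card G := by rw [hi]; ring
    _ ≤ (T + 1) * (Nat.card (ConjClasses G) * b ^ 2) := Nat.mul_le_mul_left _ h0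
    _ = (T + 1) * Nat.card (ConjClasses G) * b ^ 2 := by ring
    _ ≤ ((T + 1) * Nat.card F + Nat.card G) * b ^ 2 := Nat.mul_le_mul_right _ h3
    _ = Nat.card F * ((T + 1) * b ^ 2 + b ^ 2 * F.index) := by rw [hi]; ring

/-- An element all whose conjugates commute with it lies in the Fitting subgroup. -/
theorem mem_fitting_of_conj_commute {x : G}
    (h : ∀ g : G, g * x * g⁻¹ ∈ Subgroup.centralizer ({x} : Set G)) : x ∈ fittingSubgroup G := by
  set N := Subgroup.normalClosure ({x} : Set G) with hN
  have hgen : ∀ g k : G, Commute (g * x * g⁻¹) (k * x * k⁻¹) := by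
    intro g k
    have h1 := Subgroup.mem_centralizer_singleton_iff.1 (h (k⁻¹ * g))
    have h2 := congrArg (fun z => k * z * k⁻¹) h1
    show (g * x * g⁻¹) * (k * x * k⁻¹) = (k * x * k⁻¹) * (g * x * g⁻¹)
    simpa [mul_assoc] using h2
  have hc : ∀ a ∈ N, ∀ c ∈ N, a * c = c * a := by
    intro a ha c hc
    induction ha, hc using Subgroup.closure_induction₂ with
    | mem y z hy hz =>
      obtain ⟨w, hw, hy⟩ := Group.mem_conjugatesOfSet_iff.1 hy
      obtain ⟨v, hv, hz⟩ := Group.mem_conjugatesOfSet_iff.1 hz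
      rw [Set.mem_singleton_iff.1 hw] at hy
      rw [Set.mem_singleton_iff.1 hv] at hz
      obtain ⟨g, rfl⟩ := isConj_iff.1 hy
      obtain ⟨k, rfl⟩ := isConj_iff.1 hz
      exact hgen g k
    | one_left y hy => simp
    | one_right y hy => simp
    | mul_left a b c _ _ _ h1 h2 => exact (Commute.mul_left h1 h2 :)
    | mul_right a b c _ _ _ h1 h2 => exact (Commute.mul_right h1 h2 :)
    | inv_left a b _ _ h1 => exact (Commute.inv_left h1 :)
    | inv_right a b _ _ h1 => exact (Commute.inv_right h1 :)
  haveI : Group.IsNilpotent N := by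
    letI : CommGroup N := { (inferInstance : Group N) with
      mul_comm := fun a c => Subtype.ext (hc a a.2 c c.2) }
    exact CommGroup.isNilpotent
  exact Cores.le_fittingSubgroup (N := N) Subgroup.normalClosure_normal inferInstance
    (Subgroup.subset_normalClosure (Set.mem_singleton x))

/-- Over each character of a normal subgroup lies an extension or one of at least twice its
degree. -/
theorem exists_extension_or_double (N : Subgroup G) [N.Normal] (θ : IrrCharacter N) :
    ∃ χ : IrrCharacter G, ((fun n : N => (χ : G → ℂ) n) = (θ : N → ℂ)) ∨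
      2 * charDegree (θ : N → ℂ) ≤ charDegree (χ : G → ℂ) := by
  letI := Fintype.ofFinite G
  letI := Fintype.ofFinite N
  obtain ⟨χ, hχ⟩ := CharGraph.exists_irr_over N θ
  obtain ⟨⟨k, hk⟩, -⟩ := CharDeep.degree_ratio_dvd_index N χ.2 θ.2 hχ
    (irr_charDegree_spec χ.2).2 (irr_charDegree_spec θ.2).2
  refine ⟨χ, ?_⟩
  rcases k with _ | _ | k
  · exact absurd hk (by simpa using (deg_pos χ).ne')
  · refine Or.inl (CharInd.eq_of_constituent_of_degree
      (CharInd.isCharacter_res N (Char.isCharacter_of_irr χ.2)) θ.2 hχ ?_)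
    rw [OneMemClass.coe_one, one_apply, one_apply, Complex.natCast_re, Complex.natCast_re]
    exact_mod_cast (by omega : charDegree (χ : G → ℂ) ≤ charDegree (θ : N → ℂ))
  · refine Or.inr ?_
    rw [hk, mul_comm (charDegree (θ : N → ℂ))]
    exact Nat.mul_le_mul_right _ (by omega)

/-- Below a non-abelian quotient degrees are halved. -/
theorem two_mul_deg_le_of_nonabelian_quotient {b : ℕ}
    (hmax : ∀ χ : IrrCharacter G, charDegree (χ : G → ℂ) ≤ b)
    (N : Subgroup G) [N.Normal] (hN : ¬ commutator G ≤ N) (θ : IrrCharacter N) :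
    2 * charDegree (θ : N → ℂ) ≤ b := by
  classical
  letI := Fintype.ofFinite G
  letI := Fintype.ofFinite N
  obtain ⟨χ, hext | hχ⟩ := exists_extension_or_double N θ
  swap
  · exact hχ.trans (hmax χ)
  have hna : commutator (G ⧸ N) ≠ ⊥ := by
    rw [commutator_def, ← Subgroup.map_top_of_surjective _ (QuotientGroup.mk'_surjective N),
      ← Subgroup.map_commutator, ← commutator_def, Ne, Subgroup.map_eq_bot_iff,
      QuotientGroup.ker_mk']
    exact hN
  obtain ⟨β, hβ⟩ := CharGraph.exists_nonlinear_irr hna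
  have hirr := CharExt.isIrrCharacter_mul N (χ : G → ℂ) χ.2 (hext ▸ θ.2)
    (CharGraph.inflate N β).2 fun n g => by
      rw [CharGraph.inflate_apply, CharGraph.inflate_apply, QuotientGroup.mk_mul,
        (QuotientGroup.eq_one_iff (n : G)).2 n.2, one_mul]
  have hd := (irr_charDegree_spec hirr).2
  rw [Pi.mul_apply, one_apply, one_apply, CharGraph.charDegree_inflate] at hd
  have hd' : charDegree (β : G ⧸ N → ℂ) * charDegree (χ : G → ℂ) = charDegree
      ((CharGraph.inflate N β : G → ℂ) * (χ : G → ℂ)) := by exact_mod_cast hd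
  have hle := hmax ⟨_, hirr⟩
  rw [← hd'] at hle
  have hθ : charDegree (χ : G → ℂ) = charDegree (θ : N → ℂ) := by
    have h1 := congrFun hext 1
    simp only [OneMemClass.coe_one, one_apply] at h1
    exact_mod_cast h1
  rw [← hθ]
  refine (Nat.mul_le_mul_right _ ?_).trans hle
  have := deg_pos β
  omega

end Cfsg.Agent.CharDeg
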